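import Cfsg.Agent.MX.Defs
import Cfsg.Agent.H49.Basic
import Cfsg.Agent.H8.KleinSylow

set_option autoImplicit false
set_option linter.unusedSectionVars false

namespace Cfsg.Agent.MX

open Cfsg Subgroup

variable {G : Type*} [Group G] [Finite G]

namespace TI

open H49

instance : Fact (Nat.Prime 11) := ⟨by norm_num⟩

theorem card_C (g y : G) : Nat.card (Cg (g * y * g⁻¹)) = Nat.card (Cg y) := by
  rw [← card_cj g (Cg y), cj_cent1]

theorem card_N (g y : G) : Nat.card (Ng (g * y * g⁻¹)) = Nat.card (Ng y) := by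
  rw [← card_cj g (Ng y), cj_normalizer, cj_zpowers]

theorem conj_mem (U : Sylow 11 G) {y : G} (h : orderOf y = 11) : ∃ g, g * y * g⁻¹ ∈ (U : Subgroup G) :=
  H8.exists_conj_mem_sylow U (k := 1) (by rw [pow_one, ← h, pow_orderOf_eq_one])

theorem mem_Z {U : Subgroup G} {w : G} : w ∈ U ⊓ 𝒞(U) ↔ w ∈ U ∧ U ≤ Cg w :=
  and_congr_right fun _ => ⟨fun h a ha => mem_centralizer_singleton_iff.2 (h a ha),
    fun h _ ha => mem_centralizer_singleton_iff.1 (h ha)⟩

theorem card_Z (J : JF G) (U : Sylow 11 G) : Nat.card ↥((U : Subgroup G) ⊓ 𝒞((U : Subgroup G))) = 11 := by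
  refine Eq.trans ?_ (J.syl11 U).1.2
  rw [← card_map_of_injective (U : Subgroup G).subtype_injective]
  congr 2
  ext w
  refine ⟨fun h => ⟨⟨w, h.1⟩, mem_center_iff.2 fun a => Subtype.ext (h.2 a a.2), rfl⟩, ?_⟩
  rintro ⟨a, ha, rfl⟩
  exact ⟨a.2, fun b hb => congrArg Subtype.val (mem_center_iff.1 ha ⟨b, hb⟩)⟩

theorem noncentral (J : JF G) (U : Sylow 11 G) {w : G} (hw : w ∈ (U : Subgroup G))
    (h : ¬ (U : Subgroup G) ≤ Cg w) : Nat.card (Cg w) = 242 := by
  classical
  by_contra hne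
  obtain ⟨y₀, h1, h2⟩ := J.c242
  obtain ⟨g, hy⟩ := conj_mem U h1
  rw [← card_C g] at h2
  generalize g * y₀ * g⁻¹ = y at hy h2
  obtain ⟨-, c1, -, c2⟩ := J.syl11 U
  have c3 := card_Z J U
  have := Fintype.ofFinite G
  have e : ∀ X : Subgroup G, Nat.card X = (Finset.univ.filter (· ∈ X)).card := fun X => by
    rw [Nat.card_eq_fintype_card, Fintype.card_subtype]
  have := Finset.card_le_mul_card_image_of_maps_to (f := fun n => n * y * n⁻¹)
    (s := Finset.univ.filter (· ∈ normalizer ((U : Subgroup G) : Set G)))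
    (t := ((Finset.univ.filter (· ∈ (U : Subgroup G))) \
      Finset.univ.filter (· ∈ (U : Subgroup G) ⊓ 𝒞((U : Subgroup G)))).erase w) (fun n hn => by
      simp only [Finset.mem_filter, Finset.mem_univ, true_and, Finset.mem_erase, Finset.mem_sdiff] at hn ⊢
      refine ⟨fun e => hne (by rw [← e, card_C, h2]), (mem_normalizer_iff.1 hn y).1 hy, fun e => ?_⟩
      have := card_dvd_of_le (mem_Z.1 e).2
      rw [card_C, h2, c1] at this
      omega) 242 (fun b _ => by
      rcases (Finset.filter (fun a => a * y * a⁻¹ = b)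
        (Finset.univ.filter (· ∈ normalizer ((U : Subgroup G) : Set G)))).eq_empty_or_nonempty with e0 | ⟨a, ha⟩
      · rw [e0]; simp
      rw [← h2, e]
      refine Finset.card_le_card_of_injOn (fun c => a⁻¹ * c) (fun c hc => ?_) fun c _ d _ e => mul_left_cancel e
      simp only [Finset.coe_filter, Finset.mem_filter, Finset.mem_univ, true_and, Set.mem_ofPred_eq] at ha hc ⊢
      rw [mem_centralizer_singleton_iff]
      calc a⁻¹ * c * y = a⁻¹ * (c * y * c⁻¹) * c := by group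
        _ = _ := by rw [hc.2, ← ha.2]; group)
  rw [Finset.card_erase_of_mem (by
    simp only [Finset.mem_filter, Finset.mem_univ, true_and, Finset.mem_sdiff]
    exact ⟨hw, fun e => h (mem_Z.1 e).2⟩), Finset.card_sdiff_of_subset (fun a => by
      simp only [Finset.mem_filter, Finset.mem_univ, true_and]; exact fun h => h.1), ← e, ← e, ← e, c1, c2, c3] at this
  omega

end TI

open TI

/-- the non-central elements of a Sylow 11-subgroup are not conjugate to `x` -/
theorem JF.central (J : JF G) (U : Sylow 11 G) {w : G} (hw : w ∈ (U : Subgroup G))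
    (h : IsConj J.x w) : (U : Subgroup G) ≤ Cg w ∧ normalizer ((U : Subgroup G) : Set G) = Ng w := by
  obtain ⟨g, rfl⟩ := isConj_iff.1 h
  have h1 : (U : Subgroup G) ≤ Cg (g * J.x * g⁻¹) := by
    by_contra e
    have := noncentral J U hw e
    rw [card_C, J.cx] at this
    omega
  have h2 : zpowers (g * J.x * g⁻¹) = (U : Subgroup G) ⊓ centralizer ((U : Subgroup G) : Set G) :=
    eq_of_le_of_card_ge (zpowers_le.2 (mem_Z.2 ⟨hw, h1⟩)) (by
      rw [card_Z J, ← H49.cj_zpowers, H49.card_cj, Nat.card_zpowers, J.ord_x])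
  refine ⟨h1, eq_of_le_of_card_ge ?_ (by rw [TI.card_N, J.nx, (J.syl11 U).2.2.2])⟩
  rw [Ng, h2]
  exact H49.norm_inf le_rfl (H49.norm_cent le_rfl)

theorem JF.exists_central (J : JF G) (U : Sylow 11 G) :
    ∃ w ∈ (U : Subgroup G), IsConj J.x w :=
  let ⟨g, hg⟩ := conj_mem U J.ord_x
  ⟨_, hg, isConj_iff.2 ⟨g, rfl⟩⟩

theorem TI.ti1 (J : JF G) (U U' : Sylow 11 G) {w : G} (h : IsConj J.x w) (hw : w ∈ (U : Subgroup G))
    (hw' : w ∈ (U' : Subgroup G)) : U = U' := by
  have h1 := U'.isPGroup'.inf_normalizer_sylow U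
  have h2 : (U' : Subgroup G) ≤ normalizer ((U : Subgroup G) : Set G) := by
    rw [(J.central U hw h).2, ← (J.central U' hw' h).2]
    exact le_normalizer
  exact Sylow.ext (U'.is_maximal' U.isPGroup' (inf_eq_left.1 (h1.symm.trans (inf_eq_left.2 h2))))

theorem JF.ti (J : JF G) (U U' : Sylow 11 G) {w : G} (h1 : w ≠ 1) (hw : w ∈ (U : Subgroup G))
    (hw' : w ∈ (U' : Subgroup G)) : U = U' := by
  obtain ⟨-, c1, c2, -⟩ := J.syl11 U
  have ho : orderOf w = 11 := orderOf_eq_prime (congrArg Subtype.val (c2 ▸ Monoid.pow_exponent_eq_one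
    (⟨w, hw⟩ : (U : Subgroup G)))) h1
  rcases J.c11 w ho with h | h
  · exact ti1 J U U' h hw hw'
  obtain ⟨z, hz, cz⟩ := J.exists_central U
  obtain ⟨z', hz', cz'⟩ := J.exists_central U'
  refine ti1 J U U' cz' ?_ hz'
  have m : ∀ {a : G}, w ∈ Cg a → a ∈ Cg w := fun h =>
    mem_centralizer_singleton_iff.2 (mem_centralizer_singleton_iff.1 h).symm
  have o : ∀ {a : G}, IsConj J.x a → orderOf a = 11 ∧ Nat.card (Cg a) = 31944 := fun h => by
    obtain ⟨g, rfl⟩ := isConj_iff.1 h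
    exact ⟨by rw [← Nat.card_zpowers, ← H49.cj_zpowers, H49.card_cj, Nat.card_zpowers, J.ord_x],
      by rw [card_C, J.cx]⟩
  have hW : Nat.card ↥((U : Subgroup G) ⊓ Cg w) = 121 := by
    have d : Nat.card ↥((U : Subgroup G) ⊓ Cg w) ∣ 11 ^ 2 :=
      Nat.dvd_gcd (c1 ▸ card_dvd_of_le inf_le_left) (h ▸ card_dvd_of_le inf_le_right)
    obtain ⟨k, hk, e⟩ := (Nat.dvd_prime_pow (by norm_num)).1 d
    by_contra hne
    have hl : Nat.card ↥((U : Subgroup G) ⊓ Cg w) ≤ 11 := by
      rw [e] at hne ⊢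
      interval_cases k <;> simp_all
    have e1 : ∀ a, orderOf a = 11 → a ∈ (U : Subgroup G) ⊓ Cg w → zpowers a = (U : Subgroup G) ⊓ Cg w :=
      fun a h1 h2 => eq_of_le_of_card_ge (zpowers_le.2 h2) (by rwa [Nat.card_zpowers, h1])
    have e2 : w ∈ zpowers z := by
      rw [e1 z (o cz).1 ⟨hz, m ((J.central U hz cz).1 hw)⟩]
      exact ⟨hw, mem_centralizer_singleton_iff.2 rfl⟩
    obtain ⟨n, rfl⟩ := e2
    have := card_dvd_of_le (show Cg z ≤ Cg (z ^ n) from fun a ha => mem_centralizer_singleton_iff.2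
      (Commute.zpow_right (mem_centralizer_singleton_iff.1 ha) n))
    rw [(o cz).2, h] at this
    omega
  have hi : (((U : Subgroup G) ⊓ Cg w).subgroupOf (Cg w)).index = 2 := by
    have := (((U : Subgroup G) ⊓ Cg w).subgroupOf (Cg w)).card_mul_index
    rw [Nat.card_congr (subgroupOfEquivOfLe inf_le_right).toEquiv, hW, h] at this
    omega
  have h2 : z' ^ 2 ∈ (U : Subgroup G) := (sq_mem_of_index_two hi ⟨z', m ((J.central U' hz' cz').1 hw')⟩).1
  have := pow_mem h2 6
  rwa [← pow_mul, show 2 * 6 = orderOf z' + 1 by rw [(o cz').1], pow_succ, pow_orderOf_eq_one, one_mul] at this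

end Cfsg.Agent.MX
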