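import Cfsg.Agent.MX.Defs
import Cfsg.Agent.MX.TI

set_option autoImplicit false

namespace Cfsg.Agent.MX

open Cfsg Subgroup

namespace TIc

/-- the number of Sylow subgroups in the case of trivial intersections -/
theorem card_syl {H : Type*} [Group H] [Finite H] {p : ℕ} [Fact p.Prime]
    (ti : ∀ (W W' : Sylow p H) (w : H), w ≠ 1 → w ∈ (W : Subgroup H) → w ∈ (W' : Subgroup H) → W = W')
    (W : Sylow p H) (h1 : 1 < Nat.card (W : Subgroup H)) :
    Nat.card (Sylow p H) % Nat.card (W : Subgroup H) = 1 := by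
  classical
  haveI := Fintype.ofFinite (W : Subgroup H)
  haveI : ∀ g : (W : Subgroup H), Fintype (MulAction.fixedBy (Sylow p H) g) :=
    fun g => Fintype.ofFinite _
  haveI := Fintype.ofFinite (Quotient (MulAction.orbitRel (W : Subgroup H) (Sylow p H)))
  have h := MulAction.sum_card_fixedBy_eq_card_orbits_mul_card_group (W : Subgroup H) (Sylow p H)
  have e1 : Fintype.card (MulAction.fixedBy (Sylow p H) (1 : (W : Subgroup H))) =
      Nat.card (Sylow p H) := by
    rw [← Nat.card_eq_fintype_card, MulAction.fixedBy_one_eq_univ, Nat.card_univ]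
  have e2 : ∀ g ∈ Finset.univ.erase (1 : (W : Subgroup H)),
      Fintype.card (MulAction.fixedBy (Sylow p H) g) = 1 := fun g hg => by
    have hg1 : (g : H) ≠ 1 := fun e => (Finset.mem_erase.1 hg).1 (Subtype.ext e)
    have : MulAction.fixedBy (Sylow p H) g = {W} := by
      ext W'
      rw [MulAction.mem_fixedBy, Set.mem_singleton_iff]
      change (g : H) • W' = W' ↔ _
      rw [Sylow.smul_eq_iff_mem_normalizer]
      constructor
      · intro hn
        have : (g : H) ∈ (W : Subgroup H) ⊓ (W' : Subgroup H) :=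
          W.isPGroup'.inf_normalizer_sylow W' ▸ (⟨g.2, hn⟩ : (g : H) ∈ (W : Subgroup H) ⊓ _)
        exact ti _ _ _ hg1 this.2 g.2
      · rintro rfl
        exact le_normalizer g.2
    rw [← Nat.card_eq_fintype_card, this, Nat.card_unique]
  rw [← Finset.add_sum_erase _ _ (Finset.mem_univ 1), e1, Finset.sum_congr rfl e2, Finset.sum_const,
    Finset.card_erase_of_mem (Finset.mem_univ _), Finset.card_univ, smul_eq_mul, mul_one,
    ← Nat.card_eq_fintype_card (α := (W : Subgroup H))] at h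
  generalize Nat.card (Sylow p H) = n at h ⊢
  generalize Nat.card (W : Subgroup H) = m at h h1 ⊢
  generalize Fintype.card (Quotient (MulAction.orbitRel (W : Subgroup H) (Sylow p H))) = k at h
  have : (n + (m - 1) + 1) % m = (k * m + 1) % m := by rw [h]
  rwa [show n + (m - 1) + 1 = n + m by omega, Nat.add_mod_right, Nat.mul_add_mod_of_lt h1] at this

theorem card_mul_rel {H : Type*} [Group H] {A B : Subgroup H} (h : A ≤ B) :
    Nat.card B = Nat.card A * A.relIndex B := by
  rw [← Nat.card_congr (subgroupOfEquivOfLe h).toEquiv, relIndex, card_mul_index]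

theorem card_sub {H : Type*} [Group H] (A B : Subgroup H) :
    Nat.card (A.subgroupOf B) = Nat.card ↥(A ⊓ B) := by
  rw [← inf_subgroupOf_right, Nat.card_congr (subgroupOfEquivOfLe inf_le_right).toEquiv]

end TIc

variable {G : Type*} [Group G] [Finite G]

theorem JF.ti_count (J : JF G) (M : Subgroup G) (W : Sylow 11 M) (h : 11 ∣ Nat.card M) :
    ∃ d n, d ∣ 240 ∧ Nat.card (normalizer ((W : Subgroup M) : Set M)) = Nat.card (W : Subgroup M) * d ∧
      Nat.card M = Nat.card (W : Subgroup M) * d * n ∧ n % Nat.card (W : Subgroup M) = 1 := by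
  haveI : Fact (Nat.Prime 11) := ⟨by norm_num⟩
  have h1 : 1 < Nat.card (W : Subgroup M) :=
    lt_of_lt_of_le (by norm_num) (Nat.le_of_dvd Nat.card_pos (W.dvd_card_of_dvd_card h))
  have e := TIc.card_mul_rel (le_normalizer (H := (W : Subgroup M)))
  refine ⟨_, Nat.card (Sylow 11 M), ?_, e, ?_, TIc.card_syl (fun W W' w hw h1 h2 => ?_) W h1⟩
  · obtain ⟨U, hU⟩ := W.exists_comap_subtype_eq
    haveI := Finite.one_lt_card_iff_nontrivial.1 h1
    obtain ⟨w, hw⟩ := exists_ne (1 : (W : Subgroup M))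
    have hw1 : ((w : M) : G) ≠ 1 := fun e => hw (Subtype.ext (Subtype.ext e))
    have mU : ∀ {y : M}, y ∈ (W : Subgroup M) → (y : G) ∈ (U : Subgroup G) := fun hy => by
      rw [← hU] at hy; exact hy
    have le : (normalizer ((W : Subgroup M) : Set M)).map M.subtype ≤
        normalizer ((U : Subgroup G) : Set G) := by
      rintro _ ⟨n, hn, rfl⟩
      refine Sylow.smul_eq_iff_mem_normalizer.1
        (J.ti _ _ (w := (n : G) * ((w : M) : G) * (n : G)⁻¹) (fun e => hw1 (conj_eq_one_iff.1 e)) ?_ ?_)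
      · rw [Sylow.coe_subgroup_smul]
        exact smul_mem_pointwise_smul _ _ _ (mU w.2)
      · exact mU ((mem_normalizer_iff.1 hn _).1 w.2)
    have e1 := TIc.card_mul_rel (le_normalizer (H := (U : Subgroup G)))
    rw [(J.syl11 U).2.2.2, (J.syl11 U).2.1] at e1
    have e2 : (U : Subgroup G).relIndex (normalizer ((U : Subgroup G) : Set G)) = 240 := by omega
    have e3 : (W : Subgroup M).relIndex (normalizer ((W : Subgroup M) : Set M)) =
        (U : Subgroup G).relIndex ((normalizer ((W : Subgroup M) : Set M)).map M.subtype) := by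
      rw [← relIndex_comap, hU]
    rw [e3, ← relIndex_subgroupOf le, ← e2]
    exact relIndex_dvd_index_of_normal _ _
  · rw [← e, W.card_eq_index_normalizer]
    exact (card_mul_index _).symm
  · obtain ⟨U, hU⟩ := W.exists_comap_subtype_eq
    obtain ⟨U', hU'⟩ := W'.exists_comap_subtype_eq
    rw [← hU] at h1
    rw [← hU'] at h2
    have := J.ti U U' (w := w) (fun e => hw (Subtype.ext e)) h1 h2
    exact Sylow.ext (by rw [← hU, ← hU', this])

theorem JF.ti_num (J : JF G) (M : Subgroup G) (h : 11 ∣ Nat.card M) :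
    ∃ f d n, 1 ≤ f ∧ f ≤ 3 ∧ d ∣ 240 ∧ Nat.card M = 11 ^ f * d * n ∧ n % 11 ^ f = 1 := by
  haveI : Fact (Nat.Prime 11) := ⟨by norm_num⟩
  obtain ⟨W⟩ : Nonempty (Sylow 11 M) := inferInstance
  obtain ⟨d, n, h1, -, h2, h3⟩ := J.ti_count M W h
  obtain ⟨f, hf⟩ := IsPGroup.iff_card.1 W.isPGroup'
  have h4 := W.dvd_card_of_dvd_card h
  have h5 : Nat.card (W : Subgroup M) ∣ Nat.card G :=
    (card_subgroup_dvd_card _).trans (card_subgroup_dvd_card _)
  rw [hf] at h2 h3 h4 h5
  refine ⟨f, d, n, ?_, ?_, h1, h2, h3⟩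
  · rcases f with _ | f
    · norm_num at h4
    · omega
  · by_contra hc
    have := (pow_dvd_pow 11 (show 4 ≤ f by omega)).trans h5
    rw [J.card_G] at this
    norm_num at this

theorem JF.ti_elt (J : JF G) {M : Subgroup G} {w : G} (hw : w ∈ M) (ho : orderOf w = 11)
    (h : ¬ 11 ^ 2 ∣ Nat.card M) : Nat.card ↥(Ng w ⊓ M) ∣ 2640 := by
  haveI : Fact (Nat.Prime 11) := ⟨by norm_num⟩
  have le : zpowers w ≤ M := zpowers_le_of_mem hw
  have c1 : Nat.card ((zpowers w).subgroupOf M) = 11 := by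
    rw [Nat.card_congr (subgroupOfEquivOfLe le).toEquiv, Nat.card_zpowers, ho]
  obtain ⟨W, hW⟩ := (IsPGroup.of_card (p := 11) (n := 1) (c1.trans (pow_one _).symm)).exists_le_sylow
  obtain ⟨f, hf⟩ := IsPGroup.iff_card.1 W.isPGroup'
  have c2 : Nat.card (W : Subgroup M) ≤ 11 := by
    have h5 := card_subgroup_dvd_card (W : Subgroup M)
    rw [hf] at h5 ⊢
    have : f ≤ 1 := by
      by_contra hc
      exact h ((pow_dvd_pow 11 (show 2 ≤ f by omega)).trans h5)
    simpa using Nat.pow_le_pow_right (show 0 < 11 by norm_num) this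
  have e : (zpowers w).subgroupOf M = W := eq_of_le_of_card_ge hW (c1.symm ▸ c2)
  obtain ⟨d, n, h1, h2, -⟩ := J.ti_count M W (c1 ▸ card_subgroup_dvd_card _)
  rw [← e, c1] at h2
  rw [← TIc.card_sub, subgroupOf_normalizer_eq le]
  exact h2 ▸ Nat.mul_dvd_mul_left 11 h1

theorem JF.ti_over (J : JF G) (U : Sylow 11 G) {M : Subgroup G}
    (h : normalizer ((U : Subgroup G) : Set G) ≤ M) :
    ∃ n, Nat.card M = 319440 * n ∧ n % 1331 = 1 := by
  have le : (U : Subgroup G) ≤ M := le_normalizer.trans h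
  have c1 : Nat.card ((U.subtype le : Sylow 11 M) : Subgroup M) = 1331 := by
    rw [Sylow.coe_subtype, Nat.card_congr (subgroupOfEquivOfLe le).toEquiv, (J.syl11 U).2.1]
  obtain ⟨d, n, -, h2, h3, h4⟩ := J.ti_count M (U.subtype le)
    (Dvd.dvd.trans (by rw [c1]; norm_num) (card_subgroup_dvd_card ((U.subtype le : Sylow 11 M) : Subgroup M)))
  rw [← h2] at h3
  rw [c1] at h4
  refine ⟨n, ?_, h4⟩
  rw [h3, Sylow.coe_subtype, ← (J.syl11 U).2.2.2, ← Nat.card_congr (subgroupOfEquivOfLe h).toEquiv,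
    subgroupOf_normalizer_eq le]

end Cfsg.Agent.MX
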