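import Cfsg.Agent.MX.Defs
import Cfsg.Agent.MX.TIc
import Cfsg.Agent.H49.SylowOf

set_option autoImplicit false
set_option linter.unusedSectionVars false

namespace Cfsg.Agent.MX

open Cfsg Subgroup

variable {G : Type*} [Group G] [Finite G]

namespace LQ1

open H49

theorem cm (C A : Subgroup G) : Nat.card ↥(C ⊓ A) * C.relIndex A = Nat.card A := by
  rw [← card_mul_index (C.subgroupOf A), ← inf_subgroupOf_right,
    Nat.card_congr (subgroupOfEquivOfLe inf_le_right).toEquiv, inf_subgroupOf_right]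
  rfl

omit [Finite G] in
theorem ri {A B C : Subgroup G} (hBA : B ≤ A) (h : ∀ a ∈ A, ∃ b ∈ B, b⁻¹ * a ∈ C) : C.relIndex A = C.relIndex B := by
  refine (Nat.card_congr (Equiv.ofBijective (quotientSubgroupOfEmbeddingOfLE C hBA)
    ⟨Function.Embedding.injective _, fun q => ?_⟩)).symm
  induction q using QuotientGroup.induction_on with | H a =>
  obtain ⟨b, hb, e⟩ := h a a.2
  exact ⟨QuotientGroup.mk ⟨b, hb⟩, QuotientGroup.eq.2 e⟩

theorem card8 {P K : Subgroup G} (h : IsSylowOf 2 P K) (h8 : 8 ∣ Nat.card K) (h16 : ¬ 16 ∣ Nat.card K) :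
    Nat.card P = 8 := by
  have : Fact (Nat.Prime 2) := ⟨Nat.prime_two⟩
  obtain ⟨h1, h2, h3⟩ := (sylowOf_iff Nat.prime_two).1 h
  obtain ⟨k, hk⟩ := h2.exists_card_eq
  have e := cm P K
  rw [inf_eq_left.2 h1, hk] at e
  rw [← e] at h8 h16
  have a1 : 2 ^ 3 ∣ 2 ^ k := (Nat.Coprime.pow_left 3 ((Nat.prime_two.coprime_iff_not_dvd).2 h3)).dvd_of_dvd_mul_right h8
  have a2 : ¬ 2 ^ 4 ∣ 2 ^ k := fun a => h16 (a.mul_right _)
  rw [Nat.pow_dvd_pow_iff_le_right one_lt_two] at a1 a2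
  rw [hk, show k = 3 by omega]
  rfl

theorem syl8 {P K : Subgroup G} (h : P ≤ K) (c : Nat.card P = 8) (h16 : ¬ 16 ∣ Nat.card K) : IsSylowOf 2 P K := by
  refine (sylowOf_iff Nat.prime_two).2 ⟨h, IsPGroup.of_card (n := 3) c, fun a => h16 ?_⟩
  rw [← cm P K, inf_eq_left.2 h, c]
  exact Nat.mul_dvd_mul_left 8 a

theorem pi2 {t : G} (h : t * t = 1) : IsPi {2} (zpowers t) := by
  have : orderOf t ∣ 2 ^ 1 := orderOf_dvd_of_pow_eq_one (by rw [pow_one, sq, h])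
  exact (isPiNat_singleton_pow Nat.prime_two 1).of_dvd (by rwa [Nat.card_zpowers])

theorem step1 (J : JF G) {M : Subgroup G} (hM : Nat.card M = 97598130094080) :
    ∃ M' : Subgroup G, Nat.card M' = Nat.card M ∧ J.x ∈ M' ∧ Nat.card ↥(Ng J.x ⊓ M') = 106480 := by
  have : Fact (Nat.Prime 11) := ⟨by norm_num⟩
  obtain ⟨W⟩ : Nonempty (Sylow 11 M) := inferInstance
  obtain ⟨d, n, h1, h2, h3, h4⟩ := J.ti_count M W (by rw [hM]; norm_num)
  obtain ⟨U, hU⟩ := (W.isPGroup'.map M.subtype).exists_le_sylow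
  have cU := (J.syl11 U).2.1
  have cW : Nat.card (W : Subgroup M) = 1331 := by
    have a1 : 11 ^ 3 ∣ Nat.card (W : Subgroup M) := by
      rw [W.card_eq_multiplicity]
      exact pow_dvd_pow _ ((Nat.Prime.pow_dvd_iff_le_factorization (by norm_num) Nat.card_pos.ne').1
        (by rw [hM]; norm_num))
    have a2 := card_dvd_of_le hU
    rw [card_map_of_injective M.subtype_injective, cU] at a2
    exact Nat.dvd_antisymm a2 a1
  have eU : (W : Subgroup M).map M.subtype = U :=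
    eq_of_le_of_card_ge hU (by rw [card_map_of_injective M.subtype_injective, cU, cW])
  rw [cW] at h2 h3 h4
  have d80 : d = 80 := by
    have := Nat.le_of_dvd (by norm_num) h1
    rw [hM] at h3
    interval_cases d <;> omega
  obtain ⟨w, hw, hc⟩ := J.exists_central U
  have e1 := (J.central U hw hc).2
  obtain ⟨g, rfl⟩ := isConj_iff.1 hc
  have e2 : Nat.card ↥(Ng (g * J.x * g⁻¹) ⊓ M) = 106480 := by
    have hle : (U : Subgroup G) ≤ M := eU ▸ map_subtype_le _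
    have e3 : (W : Subgroup M) = (U : Subgroup G).subgroupOf M := by
      rw [← eU]
      exact (comap_map_eq_self_of_injective M.subtype_injective _).symm
    rw [e3, ← subgroupOf_normalizer_eq hle, e1, ← inf_subgroupOf_right,
      Nat.card_congr (subgroupOfEquivOfLe inf_le_right).toEquiv, d80] at h2
    exact h2
  refine ⟨cj g⁻¹ M, card_cj _ _, ?_, ?_⟩
  · rw [mem_cj, inv_inv]
    exact map_subtype_le _ (eU.ge hw)
  · rw [← e2, ← card_cj g, cj_inf, cj_cj_inv, cj_normalizer, cj_zpowers]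

theorem CN (x : G) : Cg x ≤ Ng x := (cent_zpowers x).ge.trans (cent_le_norm _)

theorem NC (x : G) : Ng x ≤ 𝒩(Cg x) := by
  have := norm_cent (A := Ng x) (X := zpowers x) le_rfl
  rwa [cent_zpowers] at this

theorem step2 (J : JF G) {M : Subgroup G} (h : Nat.card ↥(Ng J.x ⊓ M) = 106480) :
    Nat.card ↥(Cg J.x ⊓ M) = 10648 := by
  have e1 := cm (Cg J.x) (Ng J.x)
  rw [inf_eq_left.2 (CN _), J.cx, J.nx] at e1
  have e2 := cm (Cg J.x) (Ng J.x ⊓ M)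
  rw [← inf_assoc, inf_eq_left.2 (CN _), h] at e2
  have e3 := relIndex_le_of_le_right (H := Cg J.x) (inf_le_left : Ng J.x ⊓ M ≤ _) (by omega)
  have e4 := card_dvd_of_le (inf_le_left : Cg J.x ⊓ M ≤ _)
  rw [J.cx] at e4
  have e5 := Nat.le_of_dvd (by norm_num) (Nat.dvd_gcd e4 (Dvd.intro _ e2))
  have e6 := Nat.mul_le_mul_left (Nat.card ↥(Cg J.x ⊓ M)) e3
  rw [e2, show (Cg J.x).relIndex (Ng J.x) = 10 by omega] at e6
  have e7 : Nat.gcd 31944 106480 = 10648 := by norm_num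
  omega

end LQ1

open LQ1 H49 in
theorem JF.lq_conj (J : JF G) {M : Subgroup G} (hM : Nat.card M = 97598130094080) :
    ∃ M' : Subgroup G, Nat.card M' = Nat.card M ∧ J.z ∈ M' ∧ J.x ∈ M' ∧
      Nat.card ↥(Cg J.x ⊓ (Cg J.z ⊓ M')) = 88 ∧ Nat.card ↥(Ng J.x ⊓ (Cg J.z ⊓ M')) = 880 := by
  obtain ⟨M1, c1, x1, n1⟩ := step1 J hM
  have zz : J.z * J.z = 1 := by rw [← sq, ← J.ord_z, pow_orderOf_eq_one]
  have z1 : J.z ≠ 1 := fun e => by have := J.ord_z; simp [e] at this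
  have zx : J.z ∈ Cg J.x := mem_cent1_comm.1 J.x_mem
  obtain ⟨Q, hQ, zQ⟩ := exists_sylowOf_ge (pi2 zz) (M := Cg J.x ⊓ Cg J.z) (zpowers_le.2 ⟨zx, self_mem_cent1 _⟩)
  have cQ := card8 hQ (by rw [J.cxH]; norm_num) (by rw [J.cxH]; norm_num)
  have lQ := ((sylowOf_iff Nat.prime_two).1 hQ).1
  obtain ⟨Q', hQ'⟩ := exists_sylowOf 2 (Cg J.x ⊓ M1)
  have cQ' := card8 hQ' (by rw [step2 J n1]; norm_num) (by rw [step2 J n1]; norm_num)
  have lQ' := ((sylowOf_iff Nat.prime_two).1 hQ').1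
  obtain ⟨c, hc, e⟩ := sylowOf_conj (syl8 (lQ'.trans inf_le_left) cQ' (by rw [J.cx]; norm_num))
    (syl8 (lQ.trans inf_le_left) cQ (by rw [J.cx]; norm_num))
  have QM : Q ≤ cj c M1 := e ▸ cj_mono c (lQ'.trans inf_le_right)
  have x2 : J.x ∈ cj c M1 := by
    rw [mem_cj, mul_assoc, ← mem_cent1.1 hc, inv_mul_cancel_left]
    exact x1
  have n2 : Nat.card ↥(Ng J.x ⊓ cj c M1) = 106480 := by
    rw [← n1, ← card_cj c (Ng J.x ⊓ M1), cj_inf, cj_eq_of_mem (CN _ hc)]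
  refine ⟨cj c M1, by rw [card_cj, c1], QM (zQ (mem_zpowers _)), x2, ?_⟩
  generalize cj c M1 = M2 at QM x2 n2
  have b2 := step2 J n2
  have zM := QM (zQ (mem_zpowers _))
  have a1 : Nat.card ↥(Cg J.z ⊓ (Cg J.x ⊓ M2)) = 88 := by
    have d1 := card_dvd_of_le (inf_le_right : Cg J.z ⊓ (Cg J.x ⊓ M2) ≤ _)
    have d2 := card_dvd_of_le (show Cg J.z ⊓ (Cg J.x ⊓ M2) ≤ Cg J.x ⊓ Cg J.z from fun y hy => ⟨hy.2.1, hy.1⟩)
    have d3 := card_dvd_of_le (show Q ≤ Cg J.z ⊓ (Cg J.x ⊓ M2) from fun y hy => ⟨(lQ hy).2, (lQ hy).1, QM hy⟩)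
    have d4 := (Cg J.z ⊓ (Cg J.x ⊓ M2)).orderOf_dvd_natCard (x := J.x) ⟨J.x_mem, self_mem_cent1 _, x2⟩
    rw [b2] at d1
    rw [J.cxH] at d2
    rw [cQ] at d3
    rw [J.ord_x] at d4
    exact Nat.dvd_antisymm (Nat.dvd_gcd d1 d2) (Nat.Coprime.mul_dvd_of_dvd_of_dvd (by norm_num) d3 d4)
  have hS := syl8 (K := Cg J.x ⊓ M2) (le_inf (lQ.trans inf_le_left) QM) cQ (by rw [b2]; norm_num)
  have a2 := ri (C := Cg J.z) (inf_le_inf_right M2 (CN J.x)) fun a ha => by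
    have tt : a * J.z * a⁻¹ * (a * J.z * a⁻¹) = 1 := by rw [conj_mul, zz, mul_one, mul_inv_cancel]
    have aM : a ∈ M2 := ha.2
    obtain ⟨b, hb, hle⟩ := sylowOf_subJ hS (zpowers_le.2 (mem_inf.2 ⟨conj_mem_of_norm (NC _) ha.1 zx,
      mul_mem (mul_mem aM zM) (inv_mem aM)⟩)) (pi2 tt)
    have m := lQ (hle (conj_mem_cj.2 (mem_zpowers _)))
    refine ⟨b⁻¹, inv_mem hb, mem_cent1.2 ?_⟩
    rcases J.invol _ m.2 m.1 (by rw [conj_mul, tt, mul_one, mul_inv_cancel]) with k | k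
    · exact absurd (conj_eq_one_iff.1 (conj_eq_one_iff.1 k)) z1
    · conv_rhs => rw [← k]
      group
  have a3 := cm (Cg J.z) (Cg J.x ⊓ M2)
  have a4 := cm (Cg J.z) (Ng J.x ⊓ M2)
  rw [a1, b2] at a3
  rw [a2, n2, show (Cg J.z).relIndex (Cg J.x ⊓ M2) = 121 by omega] at a4
  rw [inf_left_comm (Cg J.x), inf_left_comm (Ng J.x)]
  exact ⟨a1, by omega⟩

end Cfsg.Agent.MX
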