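import Cfsg.Agent.MX.Defs
import Cfsg.Agent.MX.Cop
import Cfsg.Agent.H49.Prod

set_option autoImplicit false

namespace Cfsg.Agent.MX

open Cfsg Subgroup

variable {G : Type*} [Group G] [Finite G]

omit [Finite G] in
theorem lq2_norm {E M : Subgroup G} {y : G} (h1 : y ∈ normalizer (E : Set G)) (h2 : y ∈ M) :
    y ∈ normalizer ((E ⊓ M : Subgroup G) : Set G) :=
  H49.norm_inf (zpowers_le.2 h1) (H49.norm_of_le (zpowers_le.2 h2)) (mem_zpowers y)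

theorem JF.lq2_Q (J : JF G) : Nat.card ↥(J.E ⊓ Cg J.x) = 8 := by
  have h1 := card_modEq_fix (by norm_num) J.ord_x (J.E_norm J.x_mem)
  have h2 : Nat.card ↥(J.E ⊓ Cg J.x) ∣ 8192 := J.card_E ▸ card_dvd_of_le inf_le_left
  have h3 : Nat.card ↥(J.E ⊓ Cg J.x) ∣ 264 :=
    J.cxH ▸ card_dvd_of_le (le_inf inf_le_right (inf_le_left.trans J.E_le))
  have h4 := Nat.dvd_gcd h2 h3
  rw [J.card_E] at h1
  generalize Nat.card ↥(J.E ⊓ Cg J.x) = n at *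
  have h5 : n ≤ 8 := Nat.le_of_dvd (by norm_num) h4
  unfold Nat.ModEq at h1
  omega

theorem JF.lq_F (J : JF G) {M : Subgroup G} (hx : J.x ∈ M)
    (h : 8 ∣ Nat.card ↥(Cg J.x ⊓ (Cg J.z ⊓ M))) : Nat.card ↥(J.E ⊓ M) = 8 ∨ J.E ≤ M := by
  have hQ := J.lq2_Q
  have h1 := H49.card_sup_mul_card_inf (H := Cg J.x ⊓ (Cg J.z ⊓ M)) (K := J.E ⊓ Cg J.x)
    (.inl (H49.norm_inf ((inf_le_right.trans inf_le_left).trans J.E_norm) (H49.norm_of_le inf_le_left)))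
  have h2 : Nat.card ↥(Cg J.x ⊓ (Cg J.z ⊓ M) ⊔ J.E ⊓ Cg J.x) ∣ 264 := J.cxH ▸ card_dvd_of_le
    (sup_le (inf_le_inf_left _ inf_le_left) (le_inf inf_le_right (inf_le_left.trans J.E_le)))
  obtain ⟨c, hc⟩ := card_dvd_of_le (le_sup_left : Cg J.x ⊓ (Cg J.z ⊓ M) ≤ Cg J.x ⊓ (Cg J.z ⊓ M) ⊔ J.E ⊓ Cg J.x)
  obtain ⟨k, hk⟩ := h
  rw [hc, hQ, mul_assoc] at h1
  have h3 := Nat.eq_of_mul_eq_mul_left Nat.card_pos h1
  rw [hc, hk, mul_assoc] at h2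
  have h4 : c ∣ 33 := (Dvd.intro_left k rfl).trans (Nat.dvd_of_mul_dvd_mul_left (by norm_num : 0 < 8) h2)
  have h5 : c = 1 := Nat.eq_one_of_dvd_coprimes (by norm_num : Nat.Coprime 33 8) h4 (Dvd.intro _ h3)
  rw [h5, one_mul, ← hQ] at h3
  have h6 : J.E ⊓ Cg J.x ≤ M := by
    rw [← eq_of_le_of_card_ge inf_le_right h3.ge]
    exact inf_le_left.trans (inf_le_right.trans inf_le_right)
  have h7 := card_modEq_fix (by norm_num) J.ord_x (lq2_norm (J.E_norm J.x_mem) hx)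
  rw [inf_right_comm, inf_eq_left.2 h6, hQ] at h7
  have h8 : Nat.card ↥(J.E ⊓ M) ∣ 2 ^ 13 := (card_dvd_of_le inf_le_left).trans (by rw [J.card_E]; norm_num)
  obtain ⟨j, hj, e⟩ := (Nat.dvd_prime_pow Nat.prime_two).1 h8
  rw [e] at h7
  have h9 : j = 3 ∨ j = 13 := by
    interval_cases j <;> first | omega | exact absurd h7 (by decide)
  rcases h9 with rfl | rfl
  · exact .inl e
  · exact .inr (inf_eq_left.1 (eq_of_le_of_card_ge inf_le_left (by rw [e, J.card_E]; norm_num)))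

theorem JF.lq_E (J : JF G) {M : Subgroup G} (hE : J.E ≤ M) (h : 2 ^ 21 ∣ Nat.card M) :
    2 ^ 21 ∣ Nat.card ↥(Cg J.z ⊓ M) := by
  have hp : IsPGroup 2 J.E := IsPGroup.of_card (n := 13) J.card_E
  obtain ⟨T, hT⟩ := (hp.comap_of_injective M.subtype M.subtype_injective).exists_le_sylow
  have h1 := T.pow_dvd_card_of_pow_dvd_card h
  have : Nontrivial T := Finite.one_lt_card_iff_nontrivial.1
    (lt_of_lt_of_le (by norm_num) (Nat.le_of_dvd Nat.card_pos h1))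
  have := T.isPGroup'.center_nontrivial
  obtain ⟨c, hc⟩ := exists_ne (1 : center T)
  have h2 : ∀ t ∈ (T : Subgroup M), (t : G) * c.1.1.1 = c.1.1.1 * t := fun t ht =>
    congrArg (fun a : T => (a.1.1 : G)) (mem_center_iff.1 c.2 ⟨t, ht⟩)
  have h3 : (c.1.1.1 : G) ∈ zpowers J.z := J.cent_E fun e he => h2 ⟨e, hE he⟩ (hT he)
  have h4 : (c.1.1.1 : G) = J.z := by
    classical
    rw [mem_zpowers_iff_mem_range_orderOf, J.ord_z] at h3
    obtain ⟨i, hi, e⟩ := Finset.mem_image.1 h3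
    rw [Finset.mem_range] at hi
    interval_cases i
    · exact absurd (Subtype.ext (Subtype.ext (Subtype.ext (by simpa using e.symm)))) hc
    · simpa using e.symm
  refine h1.trans ?_
  rw [← card_map_of_injective (K := T) M.subtype_injective]
  refine card_dvd_of_le ?_
  rintro _ ⟨t, ht, rfl⟩
  exact ⟨mem_centralizer_singleton_iff.2 (h4 ▸ h2 t ht), t.2⟩

theorem JF.lq_eight (J : JF G) {M : Subgroup G} (hz : J.z ∈ M) (h : Nat.card ↥(J.E ⊓ M) = 8) :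
    ¬ 7 ∣ Nat.card ↥(Cg J.z ⊓ M) ∧ ¬ 2 ^ 12 ∣ Nat.card ↥(Cg J.z ⊓ M) := by
  refine ⟨fun h7 => ?_, fun ⟨k, hk⟩ => ?_⟩
  · have : Fact (Nat.Prime 7) := ⟨by norm_num⟩
    obtain ⟨⟨y, hy⟩, ho⟩ := exists_prime_orderOf_dvd_card' 7 h7
    have ho' : orderOf y = 7 := by rw [← ho]; exact (orderOf_coe (⟨y, hy⟩ : ↥(Cg J.z ⊓ M)))
    have h1 := card_modEq_fix (by norm_num) ho' (J.E_norm hy.1)
    have h2 := card_modEq_fix (by norm_num) ho' (lq2_norm (J.E_norm hy.1) hy.2)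
    have h3 : Nat.card ↥(J.E ⊓ Cg y) ∣ 8192 := J.card_E ▸ card_dvd_of_le inf_le_left
    have h4 : Nat.card ↥(J.E ⊓ Cg y) ∣ 840 := (J.c7 y ho').1 ▸ card_dvd_of_le inf_le_right
    have h5 : Nat.card ↥(J.E ⊓ Cg y) ≤ 8 := Nat.le_of_dvd (by norm_num) (Nat.dvd_gcd h3 h4)
    have h6 : Nat.card ↥(J.E ⊓ M ⊓ Cg y) ≤ Nat.card ↥(J.E ⊓ Cg y) :=
      card_le_of_le (inf_le_inf_right _ inf_le_left)
    have h8 : 2 ∣ Nat.card ↥(J.E ⊓ M ⊓ Cg y) := by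
      rw [← J.ord_z]
      exact orderOf_dvd_natCard _ ⟨⟨J.z_mem, hz⟩, mem_centralizer_singleton_iff.2
        (mem_centralizer_singleton_iff.1 hy.1).symm⟩
    rw [J.card_E] at h1
    rw [h] at h2
    unfold Nat.ModEq at h1 h2
    omega
  · have h1 := H49.card_sup_mul_card_inf (H := Cg J.z ⊓ M) (K := J.E) (.inl (inf_le_left.trans J.E_norm))
    have h2 : Nat.card ↥(Cg J.z ⊓ M ⊔ J.E) ∣ 21799895040 := J.card_H ▸ card_dvd_of_le (sup_le inf_le_left J.E_le)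
    rw [inf_right_comm, inf_eq_right.2 J.E_le, h, hk, J.card_E] at h1
    have h3 : 2 ^ 22 ∣ Nat.card ↥(Cg J.z ⊓ M ⊔ J.E) := ⟨k, by omega⟩
    exact absurd (h3.trans h2) (by norm_num)

end Cfsg.Agent.MX
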