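import Cfsg.Agent.MX.Defs
import Cfsg.Agent.MX.Cop

set_option autoImplicit false

namespace Cfsg.Agent.MX

open Cfsg Subgroup

variable {G : Type*} [Group G] [Finite G]

namespace LQ3

theorem syl_le {p : ℕ} [Fact p.Prime] {H R : Subgroup G} (h : ¬ p ∣ H.index) (hR : IsPGroup p R)
    (hRH : R ≤ H) : ∃ P : Sylow p G, R ≤ P ∧ (P : Subgroup G) ≤ H := by
  obtain ⟨Q, hQ⟩ := (hR.of_equiv (subgroupOfEquivOfLe hRH).symm).exists_le_sylow
  have hidx : ¬ p ∣ ((Q : Subgroup H).map H.subtype).index := by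
    rw [Subgroup.index_map_subtype]
    exact fun hd => ((Nat.Prime.dvd_mul Fact.out).1 hd).elim Q.not_dvd_index h
  exact ⟨(Q.isPGroup'.map _).toSylow hidx, fun x hx => ⟨⟨x, hRH hx⟩, hQ hx, rfl⟩, Subgroup.map_subtype_le _⟩

theorem cen {p : ℕ} [Fact p.Prime] {K : Type*} [Group K] [Finite K] (hK : IsPGroup p K) (N : Subgroup K)
    [N.Normal] (hN : N ≠ ⊥) : ∃ z ∈ N, z ≠ 1 ∧ z ∈ center K := by
  letI : MulAction K N := MulAction.compHom N (MulAut.conjNormal (H := N))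
  have hd : p ∣ Nat.card N :=
    (hK.to_subgroup N).card_eq_or_dvd.resolve_left fun h => hN (card_eq_one.1 h)
  obtain ⟨b, hb, hb1⟩ := hK.exists_fixed_point_of_prime_dvd_card_of_fixed_point N hd
    (a := 1) (fun g => map_one (MulAut.conjNormal g))
  refine ⟨b, b.2, fun h => hb1 (Subtype.ext h.symm), mem_center_iff.2 fun g => ?_⟩
  have : g * b * g⁻¹ = b := congrArg Subtype.val (hb g)
  exact mul_inv_eq_iff_eq_mul.1 this

theorem meet (J : JF G) {R : Subgroup G} (hR : R ≤ Cg J.z) (hc : Nat.card R = 27) : J.N.subgroupOf R ≠ ⊥ := by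
  intro h
  haveI : (J.N.subgroupOf (Cg J.z)).Normal := normal_subgroupOf_of_le_normalizer J.N_norm
  have hi : Function.Injective ((QuotientGroup.mk' (J.N.subgroupOf (Cg J.z))).comp (inclusion hR)) :=
    (injective_iff_map_eq_one _).2 fun r hr => by
      have : r ∈ J.N.subgroupOf R := (QuotientGroup.eq_one_iff (N := J.N.subgroupOf (Cg J.z)) _).1 hr
      rwa [h, mem_bot] at this
  have h1 := card_dvd_of_injective _ hi
  have h2 := (J.N.subgroupOf (Cg J.z)).card_mul_index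
  rw [Nat.card_congr (subgroupOfEquivOfLe J.N_le).toEquiv, J.card_N, J.card_H, index_eq_card] at h2
  rw [hc] at h1
  omega

theorem three (J : JF G) {A : Subgroup G} (hA : A ≤ Cg J.z) (hc : Nat.card A = 3 ^ 2) :
    ∃ c ∈ A, c ∈ J.N ∧ c ≠ 1 := by
  haveI : Fact (Nat.Prime 3) := ⟨by norm_num⟩
  have hi : ¬ 3 ∣ (Cg J.z).index := by
    have := (Cg J.z).card_mul_index
    rw [J.card_H, J.card_G] at this
    omega
  obtain ⟨R, hAR, hR⟩ := syl_le hi (IsPGroup.of_card hc) hA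
  obtain ⟨hE, h27, -⟩ := J.syl3 R hR
  haveI : (J.N.subgroupOf (R : Subgroup G)).Normal := normal_subgroupOf_of_le_normalizer (hR.trans J.N_norm)
  obtain ⟨c, hcN, hc1, hcZ⟩ := cen R.isPGroup' _ (meet J hR h27)
  refine ⟨c, by_contra fun hn => ?_, hcN, fun e => hc1 (Subtype.ext e)⟩
  have hcm := IsPGroup.commutative_of_card_eq_prime_sq hc
  have h1 : A < (R : Subgroup G) ⊓ centralizer (A : Set G) := lt_of_le_of_ne
    (le_inf hAR fun a ha b hb => congrArg Subtype.val (hcm ⟨b, hb⟩ ⟨a, ha⟩)) fun e => hn (e ▸ ⟨c.2, fun b hb =>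
      congrArg Subtype.val (mem_center_iff.1 hcZ ⟨b, hAR hb⟩)⟩)
  have h2 : Nat.card ↥((R : Subgroup G) ⊓ centralizer (A : Set G)) ∣ 3 ^ 3 := by
    have := card_dvd_of_le (inf_le_left : (R : Subgroup G) ⊓ centralizer (A : Set G) ≤ R)
    rwa [h27] at this
  have h3 : 9 < Nat.card ↥((R : Subgroup G) ⊓ centralizer (A : Set G)) := by
    by_contra k
    exact h1.ne (eq_of_le_of_card_ge h1.le (by omega))
  obtain ⟨k, hk, e⟩ := (Nat.dvd_prime_pow Nat.prime_three).1 h2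
  have h4 : (R : Subgroup G) ⊓ centralizer (A : Set G) = R := eq_of_le_of_card_ge inf_le_left (by
    rw [e] at h3 ⊢
    rw [h27]
    interval_cases k <;> simp_all)
  have h5 : A.subgroupOf (R : Subgroup G) ≤ center (R : Subgroup G) := fun a ha => mem_center_iff.2 fun r =>
    Subtype.ext ((h4.ge r.2).2 a ha).symm
  have h6 := card_dvd_of_le h5
  rw [Nat.card_congr (subgroupOfEquivOfLe hAR).toEquiv, hc, hE.2] at h6
  omega

end LQ3

theorem JF.lq_nine (J : JF G) {M : Subgroup G} (hx : J.x ∈ M)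
    (h : ¬ 3 ∣ Nat.card ↥(Cg J.x ⊓ (Cg J.z ⊓ M))) : ¬ 9 ∣ Nat.card ↥(Cg J.z ⊓ M) := by
  intro h9
  haveI : Fact (Nat.Prime 3) := ⟨by norm_num⟩
  obtain ⟨A0, hA0⟩ := Sylow.exists_subgroup_card_pow_prime 3 (n := 2) (G := ↥(Cg J.z ⊓ M)) h9
  have hc : Nat.card (A0.map (Cg J.z ⊓ M).subtype) = 3 ^ 2 := by
    rw [card_map_of_injective (subtype_injective _), hA0]
  have hle := map_subtype_le A0
  obtain ⟨c, hcA, hcN, hc1⟩ := LQ3.three J (hle.trans inf_le_left) hc
  have h3 : 3 ∣ Nat.card ↥(J.N ⊓ M) := by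
    have e1 : orderOf c ∣ 3 ^ 2 := hc ▸ orderOf_dvd_natCard _ hcA
    obtain ⟨k, -, e⟩ := (Nat.dvd_prime_pow Nat.prime_three).1 e1
    have e2 : orderOf c ∣ Nat.card ↥(J.N ⊓ M) := orderOf_dvd_natCard _ ⟨hcN, (hle hcA).2⟩
    rcases k with _ | k
    · exact absurd (orderOf_eq_one_iff.1 e) hc1
    · exact (dvd_pow_self 3 k.succ_ne_zero).trans (e ▸ e2)
  have hd : Nat.card ↥(J.N ⊓ M) ∣ 24576 := J.card_N ▸ card_dvd_of_le inf_le_left
  have hn : J.x ∈ normalizer ((J.N ⊓ M : Subgroup G) : Set G) :=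
    inf_normalizer_le_normalizer_inf ⟨J.N_norm J.x_mem, le_normalizer hx⟩
  obtain ⟨j, h1, -, h2⟩ := cop (s := 11) (by norm_num) Nat.prime_three J.ord_x hn fun e => by
    have := e.trans hd
    omega
  have hf : (Nat.card ↥(J.N ⊓ M)).factorization 3 = 1 := by
    refine le_antisymm (Nat.lt_succ_iff.1 (not_le.1 fun k => ?_))
      ((Nat.prime_three.pow_dvd_iff_le_factorization Nat.card_pos.ne').1 (by rwa [pow_one]))
    exact absurd (((Nat.prime_three.pow_dvd_iff_le_factorization Nat.card_pos.ne').2 k).trans hd) (by norm_num)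
  rw [hf] at h2
  rcases j with _ | j
  · exact absurd h2 (by decide)
  · exact h (((dvd_pow_self 3 j.succ_ne_zero).trans h1).trans
      (card_dvd_of_le fun g hg => ⟨hg.2, J.N_le hg.1.1, hg.1.2⟩))

end Cfsg.Agent.MX
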