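import Cfsg.Agent.MX.Defs

set_option autoImplicit false

namespace Cfsg.Agent.MX

open Cfsg Subgroup

variable {G : Type*} [Group G] [Finite G]

namespace LQ4

theorem half {V : Subgroup G} {z : G} (hz : z * z = 1) (cm : ∀ a ∈ V, ∀ b ∈ V, a * b = b * a)
    (sq : ∀ a ∈ V, a * a = 1) (hn : ∀ a ∈ V, z * a * z⁻¹ ∈ V) :
    Nat.card V ≤ Nat.card ↥(V ⊓ Cg z) * Nat.card ↥(V ⊓ Cg z) := by
  have zi : z⁻¹ = z := inv_eq_of_mul_eq_one_right hz
  let φ : V →* G := MonoidHom.mk' (fun v => v.1 * (z * v.1 * z⁻¹)) fun a b => by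
    show a.1 * b.1 * (z * (a.1 * b.1) * z⁻¹) = a.1 * (z * a.1 * z⁻¹) * (b.1 * (z * b.1 * z⁻¹))
    rw [← conj_mul, mul_assoc a.1 b.1, ← mul_assoc b.1, cm _ b.2 _ (hn _ a.2)]
    simp only [mul_assoc]
  have h1 : φ.range ≤ V ⊓ Cg z := by
    rintro _ ⟨a, rfl⟩
    refine mem_inf.2 ⟨mul_mem a.2 (hn _ a.2), mem_centralizer_singleton_iff.2 ?_⟩
    show a.1 * (z * a.1 * z⁻¹) * z = z * (a.1 * (z * a.1 * z⁻¹))
    rw [cm _ a.2 _ (hn _ a.2)]
    nth_rw 1 [← cm _ a.2 _ (hn _ a.2)]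
    rw [zi]
    simp only [← mul_assoc, hz, one_mul]
    rw [mul_assoc _ z z, hz, mul_one]
  have h2 : φ.ker.map V.subtype ≤ V ⊓ Cg z := by
    rintro _ ⟨a, ha, rfl⟩
    refine mem_inf.2 ⟨a.2, mem_centralizer_singleton_iff.2 ?_⟩
    have e : a.1 * (z * a.1 * z⁻¹) = 1 := ha
    have e2 : z * a.1 * z⁻¹ = a.1 := mul_left_cancel (e.trans (sq _ a.2).symm)
    exact (mul_inv_eq_iff_eq_mul.1 e2).symm
  have h3 := card_le_of_le h1
  have h4 := card_le_of_le h2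
  rw [card_subtype] at h4
  rw [← card_mul_index φ.ker, index_ker]
  exact Nat.mul_le_mul h4 h3

end LQ4

theorem JF.lq_128 (J : JF G) {M : Subgroup G} (hz : J.z ∈ M) (h : 2 ^ 21 ∣ Nat.card M) :
    2 ^ 7 ∣ Nat.card ↥(Cg J.z ⊓ M) := by
  have z2 : J.z * J.z = 1 := by rw [← pow_two, ← J.ord_z, pow_orderOf_eq_one]
  obtain ⟨T, hT, zT⟩ : ∃ T : Sylow 2 G, (T : Subgroup G) ≤ M ∧ J.z ∈ (T : Subgroup G) := by
    have p1 : IsPGroup 2 (zpowers (⟨J.z, hz⟩ : M)) :=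
      IsPGroup.of_card (n := 1) (by rw [Nat.card_zpowers, orderOf_mk, J.ord_z, pow_one])
    obtain ⟨P, hP⟩ := p1.exists_le_sylow
    obtain ⟨T, hT⟩ := (P.isPGroup'.map M.subtype).exists_le_sylow
    have c1 : 2 ^ 21 ∣ Nat.card ↥((P : Subgroup M).map M.subtype) := by
      rw [card_subtype]; exact P.pow_dvd_card_of_pow_dvd_card h
    obtain ⟨k, hk⟩ := T.isPGroup'.exists_card_eq
    have c2 : 2 ^ k ∣ 86775571046077562880 := by rw [← hk, ← J.card_G]; exact card_subgroup_dvd_card _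
    have c3 : k ≤ 21 := by
      by_contra k1
      exact absurd ((pow_dvd_pow 2 (by omega : 22 ≤ k)).trans c2) (by norm_num)
    have e := eq_of_le_of_card_ge hT (by
      rw [hk]; exact (Nat.pow_le_pow_right (by norm_num) c3).trans (Nat.le_of_dvd Nat.card_pos c1))
    exact ⟨T, e ▸ map_subtype_le _, hT ⟨_, hP (mem_zpowers _), rfl⟩⟩
  obtain ⟨V, ⟨v1, v2, v3⟩, u⟩ := J.uniqV T
  have cm : ∀ a ∈ V, ∀ b ∈ V, a * b = b * a := fun a ha b hb =>
    congrArg Subtype.val (v2.1.is_comm.comm ⟨a, ha⟩ ⟨b, hb⟩)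
  have sq : ∀ a ∈ V, a * a = 1 := fun a ha => by
    rw [← pow_two]; exact v2.2 a ha
  have hn : ∀ a ∈ V, J.z * a * J.z⁻¹ ∈ V := by
    have := u (V.map (MulAut.conj J.z).toMonoidHom) ⟨by
      rintro _ ⟨a, ha, rfl⟩
      exact mul_mem (mul_mem zT (v1 ha)) (inv_mem zT), ⟨⟨⟨by
        rintro ⟨_, a, ha, rfl⟩ ⟨_, b, hb, rfl⟩
        exact Subtype.ext (by
          show MulAut.conj J.z a * MulAut.conj J.z b = MulAut.conj J.z b * MulAut.conj J.z a
          rw [← map_mul, ← map_mul, cm a ha b hb])⟩⟩, by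
        rintro _ ⟨a, ha, rfl⟩
        show MulAut.conj J.z a ^ 2 = 1
        rw [← map_pow, pow_two, sq a ha, map_one]⟩, by
      rw [card_map_of_injective (MulAut.conj J.z).injective, v3]⟩
    exact fun a ha => this.le ⟨a, ha, rfl⟩
  obtain ⟨k, hk⟩ := (T.isPGroup'.to_le (inf_le_left : (T : Subgroup G) ⊓ Cg J.z ≤ T)).exists_card_eq
  have l1 : V ⊓ Cg J.z ≤ (T : Subgroup G) ⊓ Cg J.z := inf_le_inf_right _ v1
  have c1 : 64 < Nat.card ↥((T : Subgroup G) ⊓ Cg J.z) := by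
    by_cases zV : J.z ∈ V
    · have := card_le_of_le (le_inf v1 fun a ha => mem_centralizer_singleton_iff.2 (cm a ha _ zV) :
        V ≤ (T : Subgroup G) ⊓ Cg J.z)
      omega
    · have c2 := LQ4.half z2 cm sq hn
      obtain ⟨m, hm⟩ := card_dvd_of_le l1
      have m1 : m ≠ 1 := fun e => zV ((eq_of_le_of_card_ge l1 (by rw [hm, e, mul_one])).ge
        (mem_inf.2 ⟨zT, mem_centralizer_singleton_iff.2 rfl⟩)).1
      have m0 : m ≠ 0 := fun e => by
        rw [e, mul_zero] at hm; exact Nat.card_pos.ne' hm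
      have c3 : 32 < Nat.card ↥(V ⊓ Cg J.z) := by
        by_contra c4
        have := Nat.mul_le_mul (not_lt.1 c4) (not_lt.1 c4)
        omega
      have := Nat.mul_le_mul_left (Nat.card ↥(V ⊓ Cg J.z)) (by omega : 2 ≤ m)
      omega
  have c5 : 7 ≤ k := by
    by_contra c6
    have := Nat.pow_le_pow_right (by norm_num : 0 < 2) (by omega : k ≤ 6)
    omega
  exact (pow_dvd_pow 2 c5).trans (hk ▸ card_dvd_of_le (le_inf inf_le_right (inf_le_left.trans hT)))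

end Cfsg.Agent.MX
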