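import Cfsg.Agent.MX.Defs

set_option autoImplicit false

namespace Cfsg.Agent.MX

open Cfsg Subgroup

variable {G : Type*} [Group G] [Finite G]

namespace LocA

omit [Finite G] in
theorem cent_zpowers (x : G) : centralizer (zpowers x : Set G) = Cg x := by
  rw [zpowers_eq_closure, centralizer_closure]

theorem mem_Ng {g x : G} : g ∈ Ng x ↔ g * x * g⁻¹ ∈ zpowers x := by
  refine ⟨fun h => (mem_normalizer_iff.1 h x).1 (mem_zpowers x), fun h => ?_⟩
  refine mem_normalizer_fintype fun n hn => ?_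
  obtain ⟨k, rfl⟩ := mem_zpowers_iff.1 hn
  rw [← conj_zpow]; exact zpow_mem h k

omit [Finite G] in
theorem cent_le_norm (x : G) : Cg x ≤ Ng x := by
  rw [← cent_zpowers]; exact centralizer_le_normalizer _

omit [Finite G] in
theorem ker_norm (x : G) : (normalizerMonoidHom (zpowers x)).ker = (Cg x).subgroupOf (Ng x) := by
  rw [normalizerMonoidHom_ker, cent_zpowers]

omit [Finite G] in
theorem card_norm_eq (x : G) : Nat.card (Ng x) =
    Nat.card (normalizerMonoidHom (zpowers x)).range * Nat.card (Cg x) := by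
  rw [← index_ker, ker_norm, ← Nat.card_congr (subgroupOfEquivOfLe (cent_le_norm x)).toEquiv,
    index_mul_card]

theorem exists_sylow {r : ℕ} [hr : Fact r.Prime] {x : G} (hx : orderOf x = r)
    (h2 : ¬ r ^ 2 ∣ Nat.card G) : ∃ U : Sylow r G, (U : Subgroup G) = zpowers x := by
  have h1 : Nat.card (zpowers x) = r := by rw [Nat.card_zpowers, hx]
  refine ⟨(IsPGroup.of_card (n := 1) (h1.trans (pow_one r).symm)).toSylow fun h => h2 ?_, rfl⟩
  rw [← index_mul_card (zpowers x), h1, sq]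
  exact Nat.mul_dvd_mul_right h r

theorem exists_e {r : ℕ} (hr : r.Prime) {x : G} (hx : orderOf x = r)
    (h2 : ¬ r ^ 2 ∣ Nat.card G) : ∃ e m, e ∣ r - 1 ∧ m ≡ 1 [MOD r] ∧
      Nat.card (Ng x) = e * Nat.card (Cg x) ∧ Nat.card G = m * (e * Nat.card (Cg x)) := by
  have := Fact.mk hr
  obtain ⟨U, hU⟩ := exists_sylow hx h2
  refine ⟨_, (Ng x).index, ?_, ?_, card_norm_eq x, ?_⟩
  · have := card_subgroup_dvd_card (normalizerMonoidHom (zpowers x)).range
    rwa [IsCyclic.card_mulAut, Nat.card_zpowers, hx, Nat.totient_prime hr] at this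
  · unfold Ng
    rw [← hU]
    exact (Sylow.card_eq_index_normalizer U) ▸ card_sylow_modEq_one r G
  · rw [← card_norm_eq, index_mul_card]

omit [Finite G] in
theorem card_subgroupOf (H K : Subgroup G) :
    Nat.card (H.subgroupOf K) = Nat.card ↥(H ⊓ K) := by
  rw [← subgroupOf_map_subtype, card_map_of_injective K.subtype_injective]

omit [Finite G] in
theorem relIndex_mul (H K : Subgroup G) :
    H.relIndex K * Nat.card ↥(H ⊓ K) = Nat.card K := by
  rw [← card_subgroupOf, relIndex, index_mul_card]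

omit [Finite G] in
theorem mem_zpowers_coe {K : Subgroup G} {x y : K} : y ∈ zpowers x ↔ (y : G) ∈ zpowers (x : G) := by
  simp only [mem_zpowers_iff]
  exact ⟨fun ⟨k, h⟩ => ⟨k, by rw [← h]; rfl⟩, fun ⟨k, h⟩ => ⟨k, Subtype.ext h⟩⟩

omit [Finite G] in
theorem Cg_coe (K : Subgroup G) (x : K) : Cg x = (Cg (x : G)).subgroupOf K := by
  ext g
  rw [mem_subgroupOf, mem_centralizer_singleton_iff, mem_centralizer_singleton_iff]
  exact ⟨fun h => congrArg Subtype.val h, fun h => Subtype.ext h⟩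

theorem Ng_coe (K : Subgroup G) (x : K) : Ng x = (Ng (x : G)).subgroupOf K := by
  ext g
  rw [mem_subgroupOf, mem_Ng, mem_Ng, mem_zpowers_coe]
  rfl

end LocA

open LocA

theorem card_Cg_coe (K : Subgroup G) (x : K) :
    Nat.card (Cg x) = Nat.card ↥(Cg (x : G) ⊓ K) := by
  rw [Cg_coe, card_subgroupOf]

theorem card_Ng_coe (K : Subgroup G) (x : K) :
    Nat.card (Ng x) = Nat.card ↥(Ng (x : G) ⊓ K) := by
  rw [Ng_coe, card_subgroupOf]

/-- Sylow count in a subgroup -/
theorem loc {q : ℕ} (hq : q.Prime) (K : Subgroup G) (x : K) (hx : orderOf x = q)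
    (h2 : ¬ q ^ 2 ∣ Nat.card K) :
    ∃ e n, Nat.card (Ng x) = e * Nat.card (Cg x) ∧ Nat.card K = n * (e * Nat.card (Cg x)) ∧
      n % q = 1 ∧ e ∣ q - 1 ∧ q ∣ Nat.card (Cg x) ∧ Nat.card (Cg x) ∣ Nat.card (Cg (x : G)) ∧
      e * Nat.card (Cg (x : G)) ∣ Nat.card (Ng (x : G)) := by
  obtain ⟨e, n, h1, h3, h4, h5⟩ := exists_e hq hx h2
  refine ⟨e, n, h4, h5, ?_, h1, ?_, ?_, ?_⟩
  · rw [h3, Nat.mod_eq_of_lt hq.one_lt]
  · rw [← hx, ← Nat.card_zpowers]
    refine card_dvd_of_le (zpowers_le.2 ?_)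
    exact mem_centralizer_singleton_iff.2 rfl
  · rw [card_Cg_coe]; exact card_dvd_of_le inf_le_left
  · have hn : ((Cg (x : G)).subgroupOf (Ng (x : G))).Normal := by
      rw [← ker_norm]; infer_instance
    have h6 := relIndex_dvd_index_of_normal ((Cg (x : G)).subgroupOf (Ng (x : G)))
      (K.subgroupOf (Ng (x : G)))
    have h7 := relIndex_mul ((Cg (x : G)).subgroupOf (Ng (x : G))) (K.subgroupOf (Ng (x : G)))
    have h8 : (Cg (x : G)).subgroupOf (Ng (x : G)) ⊓ K.subgroupOf (Ng (x : G)) =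
        (Cg (x : G) ⊓ K).subgroupOf (Ng (x : G)) := rfl
    rw [h8, card_subgroupOf, card_subgroupOf, inf_comm K, ← card_Ng_coe,
      inf_eq_left.2 (inf_le_left.trans (cent_le_norm _)), ← card_Cg_coe, h4] at h7
    rw [Nat.eq_of_mul_eq_mul_right Nat.card_pos h7] at h6
    have h9 := index_mul_card ((Cg (x : G)).subgroupOf (Ng (x : G)))
    rw [card_subgroupOf, inf_eq_left.2 (cent_le_norm _)] at h9
    rw [← h9]
    exact Nat.mul_dvd_mul_right h6 _

/-- Burnside -/
theorem loc_simple {K : Type*} [Group K] [Finite K] [IsSimpleGroup K] (hK : ¬ IsMulCommutative K)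
    {q : ℕ} (hq : q.Prime) {x : K} (hx : orderOf x = q) (h2 : ¬ q ^ 2 ∣ Nat.card K) :
    Nat.card (Ng x) ≠ Nat.card (Cg x) := by
  intro h
  have := Fact.mk hq
  have h1 : Cg x = Ng x := eq_of_le_of_card_ge (cent_le_norm x) h.le
  obtain ⟨U, hU⟩ := exists_sylow hx h2
  have hP : normalizer ((U : Subgroup K) : Set K) ≤ centralizer ((U : Subgroup K) : Set K) := by
    rw [hU, cent_zpowers, h1]
  have hc := MonoidHom.ker_transferSylow_isComplement' U hP
  rcases (MonoidHom.normal_ker (MonoidHom.transferSylow U hP)).eq_bot_or_eq_top with h3 | h3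
  · rw [h3, isComplement'_bot_left, hU] at hc
    refine hK ⟨⟨fun a b => ?_⟩⟩
    obtain ⟨i, rfl⟩ := mem_zpowers_iff.1 (hc ▸ mem_top a : a ∈ zpowers x)
    obtain ⟨j, rfl⟩ := mem_zpowers_iff.1 (hc ▸ mem_top b : b ∈ zpowers x)
    exact zpow_mul_comm x i j
  · rw [h3, isComplement'_top_left, hU, zpowers_eq_bot] at hc
    rw [hc, orderOf_one] at hx
    exact hq.one_lt.ne hx

/-- Frattini -/
theorem loc_frattini {q : ℕ} (hq : q.Prime) {K M : Subgroup G} (hKM : K ≤ M)
    (hn : M ≤ normalizer (K : Set G)) (x : K) (hx : orderOf x = q) (h2 : ¬ q ^ 2 ∣ Nat.card K) :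
    Nat.card (Ng x) * Nat.card M = Nat.card ↥(Ng (x : G) ⊓ M) * Nat.card K := by
  have := Fact.mk hq
  have hN : (K.subgroupOf M).Normal := (normal_subgroupOf_iff_le_normalizer hKM).2 hn
  obtain ⟨U, hU⟩ := exists_sylow hx h2
  have htop : (Ng (x : G)).subgroupOf M ⊔ K.subgroupOf M = ⊤ := by
    refine top_le_iff.1 fun m _ => ?_
    have hm : (m : G) * x * (m : G)⁻¹ ∈ K := (mem_normalizer_iff.1 (hn m.2) x).1 x.2
    have ho : orderOf (⟨_, hm⟩ : K) = q := by
      rw [← Subgroup.orderOf_coe, ← hx, ← Subgroup.orderOf_coe]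
      exact (MulAut.conj (m : G)).orderOf_eq x
    obtain ⟨V, hV⟩ := exists_sylow ho h2
    obtain ⟨k, hk⟩ := MulAction.exists_smul_eq K V U
    have h3 : k * ⟨_, hm⟩ * k⁻¹ ∈ zpowers x := by
      rw [← hU, ← hk, Sylow.coe_subgroup_smul, hV]
      exact smul_mem_pointwise_smul _ (MulAut.conj k) _ (mem_zpowers _)
    rw [mem_zpowers_coe] at h3
    have h4 : (k : G) * m ∈ Ng (x : G) := by
      rw [mem_Ng]
      convert h3 using 1
      simp only [Subgroup.coe_mul, Subgroup.coe_inv]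
      group
    have h5 : m = (⟨k, hKM k.2⟩ : M)⁻¹ * (⟨k, hKM k.2⟩ * m) := by group
    rw [h5]
    exact mul_mem (mem_sup_right (inv_mem (mem_subgroupOf.2 k.2))) (mem_sup_left (mem_subgroupOf.2 h4))
  have h6 := relIndex_sup_right ((Ng (x : G)).subgroupOf M) (K.subgroupOf M)
  rw [htop, relIndex_top_right] at h6
  have h7 := relIndex_mul (K.subgroupOf M) ((Ng (x : G)).subgroupOf M)
  have h8 : K.subgroupOf M ⊓ (Ng (x : G)).subgroupOf M = (K ⊓ Ng (x : G)).subgroupOf M := rfl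
  rw [h8, card_subgroupOf, card_subgroupOf, inf_eq_left.2 (inf_le_left.trans hKM), inf_comm K,
    ← card_Ng_coe, ← h6] at h7
  have h9 := index_mul_card (K.subgroupOf M)
  rw [card_subgroupOf, inf_eq_left.2 hKM] at h9
  rw [← h7, ← h9]
  ring

/-- an overgroup of a Sylow normaliser has index 1 mod `r` over it -/
theorem idx_sylow {r : ℕ} [Fact r.Prime] (R : Sylow r G) {X M : Subgroup G}
    (hX : normalizer ((R : Subgroup G) : Set G) ≤ X) (hXM : X ≤ M) :
    ∃ j, Nat.card M = Nat.card X * j ∧ j % r = 1 := by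
  have key : ∀ Y : Subgroup G, normalizer ((R : Subgroup G) : Set G) ≤ Y →
      (normalizer ((R : Subgroup G) : Set G)).relIndex Y ≡ 1 [MOD r] := by
    intro Y hY
    have hR : (R : Subgroup G) ≤ Y := le_normalizer.trans hY
    have h1 := card_sylow_modEq_one r Y
    rw [Sylow.card_eq_index_normalizer (R.subtype hR)] at h1
    rw [relIndex, subgroupOf_normalizer_eq hR]
    exact h1
  have h1 := relIndex_mul_relIndex _ X M hX hXM
  have h2 := key X hX
  have h3 := key M (hX.trans hXM)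
  refine ⟨X.relIndex M, ?_, ?_⟩
  · have h4 := relIndex_mul X M
    rw [inf_eq_left.2 hXM] at h4
    rw [← h4, mul_comm]
  · rw [← h1] at h3
    have h5 := (h2.mul_right (X.relIndex M)).symm.trans h3
    rw [one_mul] at h5
    rw [h5, Nat.mod_eq_of_lt (Fact.out : r.Prime).one_lt]

/-- a Sylow subgroup of prime order is generated by an element -/
theorem sylow_gen {q : ℕ} [Fact q.Prime] (h1 : q ∣ Nat.card G) (h2 : ¬ q ^ 2 ∣ Nat.card G)
    (U : Sylow q G) : ∃ x : G, orderOf x = q ∧ (U : Subgroup G) = zpowers x := by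
  obtain ⟨y, hy⟩ := exists_prime_orderOf_dvd_card' q h1
  obtain ⟨V, hV⟩ := exists_sylow hy h2
  obtain ⟨g, hg⟩ := MulAction.exists_smul_eq G V U
  refine ⟨g * y * g⁻¹, hy ▸ (MulAut.conj g).orderOf_eq y, ?_⟩
  rw [← hg, Sylow.coe_subgroup_smul, hV]
  exact MonoidHom.map_zpowers _ y

end Cfsg.Agent.MX
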