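import Cfsg.Agent.MX.Defs
import Cfsg.Agent.MX.LQ1
import Cfsg.Agent.MX.LQ2
import Cfsg.Agent.MX.LQ3
import Cfsg.Agent.MX.LQ4
import Cfsg.Agent.MX.Loc

set_option autoImplicit false

namespace Cfsg.Agent.MX

open Cfsg Subgroup

variable {G : Type*} [Group G] [Finite G]

namespace B19

theorem tab (i j l : ℕ) (hi : i ≤ 17) (hj : j ≤ 3) (hl : l ≤ 1) (n : ℕ) (e : n = 2 ^ i * (3 ^ j * 7 ^ l))
    (h11 : n % 11 = 1) (h9 : ¬ 9 ∣ n * 880) (h7 : 2 ^ 7 ∣ n * 880)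
    (h : 2 ^ 21 ∣ n * 880 ∨ ¬ 7 ∣ n * 880 ∧ ¬ 2 ^ 12 ∣ n * 880) : False := by
  subst e
  interval_cases i <;> interval_cases j <;> interval_cases l <;> revert h11 h9 h7 h <;> decide

theorem arith {n : ℕ} (hd : n * 880 ∣ 21799895040) (h11 : n % 11 = 1) (h9 : ¬ 9 ∣ n * 880)
    (h7 : 2 ^ 7 ∣ n * 880) (h : 2 ^ 21 ∣ n * 880 ∨ ¬ 7 ∣ n * 880 ∧ ¬ 2 ^ 12 ∣ n * 880) : False := by
  have h1 : n ∣ 2 ^ 17 * (3 ^ 3 * 7 ^ 1) :=
    Nat.dvd_of_mul_dvd_mul_right (by norm_num : 0 < 880) (by simpa using hd)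
  obtain ⟨a, b, ha, hb, rfl⟩ := Nat.dvd_mul.mp h1
  obtain ⟨c, e, hc, he, rfl⟩ := Nat.dvd_mul.mp hb
  obtain ⟨i, hi, rfl⟩ := (Nat.dvd_prime_pow Nat.prime_two).mp ha
  obtain ⟨j, hj, rfl⟩ := (Nat.dvd_prime_pow Nat.prime_three).mp hc
  obtain ⟨l, hl, rfl⟩ := (Nat.dvd_prime_pow (by norm_num : Nat.Prime 7)).mp he
  exact tab i j l hi hj hl _ rfl h11 h9 h7 h

end B19

theorem JF.b19 (J : JF G) (M : Subgroup G) : Nat.card M ≠ 97598130094080 := by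
  intro hM
  obtain ⟨M', hc, hz, hx, h88, h880⟩ := J.lq_conj hM
  rw [hM] at hc
  have h21 : 2 ^ 21 ∣ Nat.card M' := by rw [hc]; norm_num
  have hd : Nat.card ↥(Cg J.z ⊓ M') ∣ 21799895040 := J.card_H ▸ card_dvd_of_le inf_le_left
  let x : ↥(Cg J.z ⊓ M') := ⟨J.x, J.x_mem, hx⟩
  have ho : orderOf x = 11 := by rw [← J.ord_x]; exact (orderOf_coe x).symm
  obtain ⟨e, n, e1, e2, e3, -⟩ := loc (by norm_num : Nat.Prime 11) _ x ho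
    fun h => absurd (h.trans hd) (by norm_num)
  rw [← e1, card_Ng_coe, h880] at e2
  have h9 := J.lq_nine hx (by rw [h88]; norm_num)
  have h7 := J.lq_128 hz h21
  have h := (J.lq_F hx (by rw [h88]; norm_num)).symm.imp (fun h => J.lq_E h h21) (J.lq_eight hz)
  rw [e2] at hd h9 h7 h
  exact B19.arith hd e3 h9 h7 h

end Cfsg.Agent.MX
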