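import Cfsg.Agent.MX.Defs
import Cfsg.Agent.MX.Cop

set_option autoImplicit false

namespace Cfsg.Agent.MX

open Cfsg Subgroup

variable {G : Type*} [Group G] [Finite G]

namespace C132

theorem card_inf_mul (K Q : Subgroup G) : Nat.card ↥(K ⊓ Q) * K.relIndex Q = Nat.card Q := by
  have h := (K.subgroupOf Q).card_mul_index
  have e : Nat.card (K.subgroupOf Q) = Nat.card ↥(K ⊓ Q) := by
    rw [← inf_subgroupOf_right]
    exact Nat.card_congr (subgroupOfEquivOfLe (inf_le_right : K ⊓ Q ≤ Q)).toEquiv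
  rw [← e]; exact h

theorem mem_Cg {g h : G} : h ∈ Cg g ↔ g * h = h * g := by
  simp [Cg, mem_centralizer_iff]

theorem card_Q (J : JF G) : Nat.card ↥(J.E ⊓ Cg J.x) = 8 := by
  have h1 := card_modEq_fix (by norm_num : Nat.Prime 11) J.ord_x (J.E_norm J.x_mem)
  rw [J.card_E] at h1
  have h2 : Nat.card ↥(J.E ⊓ Cg J.x) ∣ 8192 := J.card_E ▸ card_dvd_of_le inf_le_left
  have h3 : Nat.card ↥(J.E ⊓ Cg J.x) ∣ 264 :=
    J.cxH ▸ card_dvd_of_le (le_inf inf_le_right (inf_le_left.trans J.E_le))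
  have h4 : Nat.card ↥(J.E ⊓ Cg J.x) ∣ 8 := by
    have := Nat.dvd_gcd h2 h3
    simpa using this
  have h5 := Nat.le_of_dvd (by norm_num) h4
  unfold Nat.ModEq at h1
  omega

theorem no_index_two (J : JF G) (K : Subgroup G) (hK : K ≤ Cg J.x)
    (hi : K.relIndex (Cg J.x) = 2) : False := by
  have hi' : (K.subgroupOf (Cg J.x)).index = 2 := hi
  have hn : (K.subgroupOf (Cg J.x)).Normal := normal_of_index_eq_two hi'
  have hcK : Nat.card K = 15972 := by
    have h := card_inf_mul K (Cg J.x)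
    rw [inf_eq_left.2 hK, hi, J.cx] at h
    omega
  set Q := J.E ⊓ Cg J.x with hQ
  have hQ8 : Nat.card Q = 8 := card_Q J
  have hr : K.relIndex Q ≤ 2 := by
    rw [← hi]
    exact relIndex_le_of_le_right inf_le_right (by rw [hi]; norm_num)
  have hR := card_inf_mul K Q
  rw [hQ8] at hR
  have hd : Nat.card ↥(K ⊓ Q) ∣ 15972 := hcK ▸ card_dvd_of_le inf_le_left
  have hR4 : Nat.card ↥(K ⊓ Q) = 4 := by
    have : K.relIndex Q = 0 ∨ K.relIndex Q = 1 ∨ K.relIndex Q = 2 := by omega
    rcases this with h | h | h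
    · rw [h] at hR; omega
    · rw [h] at hR
      have h8 : Nat.card ↥(K ⊓ Q) = 8 := by omega
      rw [h8] at hd
      norm_num at hd
    · rw [h] at hR; omega
  -- `p` normalises `K ⊓ Q`
  have hpn : J.p ∈ normalizer ((K ⊓ Q : Subgroup G) : Set G) := by
    have h1 : J.p ∈ normalizer (K : Set G) :=
      (normal_subgroupOf_iff_le_normalizer hK).1 hn J.p_x
    have h2 : J.p ∈ normalizer (J.E : Set G) := J.E_norm J.p_mem
    have h3 : J.p ∈ normalizer ((Cg J.x : Subgroup G) : Set G) := le_normalizer J.p_x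
    rw [mem_normalizer_iff] at h1 h2 h3 ⊢
    intro h
    simp only [hQ, mem_inf]
    rw [h1 h, h2 h, h3 h]
  have hm := card_modEq_fix (by norm_num : Nat.Prime 3) J.ord_p hpn
  rw [hR4] at hm
  -- `z` lies in `K ⊓ Q`
  have hz : J.z ∈ K ⊓ Q := by
    haveI : Fact (Nat.Prime 2) := ⟨Nat.prime_two⟩
    obtain ⟨t, ht⟩ := exists_prime_orderOf_dvd_card' (G := ↥(K ⊓ Q)) 2 (by rw [hR4]; norm_num)
    have ht' : orderOf (t : G) = 2 := by rw [Subgroup.orderOf_coe]; exact ht
    have htt : (t : G) * t = 1 := by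
      have := pow_orderOf_eq_one (t : G)
      rwa [ht', pow_two] at this
    rcases J.invol t (J.E_le t.2.2.1) t.2.2.2 htt with h | h
    · rw [h, orderOf_one] at ht'; omega
    · rw [← h]; exact t.2
  have hzp : J.z ∈ Cg J.p := by
    have := mem_Cg.1 J.p_mem
    exact mem_Cg.2 this.symm
  have heq : (K ⊓ Q) ⊓ Cg J.p = zpowers J.z := by
    apply le_antisymm
    · rw [← J.E_p]
      exact inf_le_inf_right _ (inf_le_right.trans inf_le_left)
    · rw [zpowers_le]; exact ⟨hz, hzp⟩
  rw [heq, Nat.card_zpowers, J.ord_z] at hm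
  exact absurd hm (by decide)

theorem core (J : JF G) {D : Subgroup G} (hD : D ≤ Cg J.x) (hc : Nat.card D = 132) : False := by
  haveI : Fact (Nat.Prime 11) := ⟨by norm_num⟩
  obtain ⟨U⟩ : Nonempty (Sylow 11 (Cg J.x)) := inferInstance
  haveI := J.cxU U
  have hU : Nat.card (U : Subgroup (Cg J.x)) = 1331 := by
    rw [U.card_eq_multiplicity, J.cx]
    have : (31944 : ℕ) = 11 ^ 3 * 24 := by norm_num
    rw [this, Nat.factorization_mul (by norm_num) (by norm_num), Finsupp.add_apply,
      Nat.Prime.factorization_pow (by norm_num), Finsupp.single_eq_same,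
      Nat.factorization_eq_zero_of_not_dvd (by norm_num)]
    norm_num
  have hq : Nat.card (Cg J.x ⧸ (U : Subgroup (Cg J.x))) = 24 := by
    have := card_eq_card_quotient_mul_card_subgroup (U : Subgroup (Cg J.x))
    rw [J.cx, hU] at this
    omega
  set D1 := D.subgroupOf (Cg J.x) with hD1
  have hc1 : Nat.card D1 = 132 := by
    rw [← hc]; exact Nat.card_congr (subgroupOfEquivOfLe hD).toEquiv
  set π := QuotientGroup.mk' (U : Subgroup (Cg J.x)) with hπ
  have hk : π.ker = U := QuotientGroup.ker_mk' _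
  have h1 : (U : Subgroup (Cg J.x)).relIndex D1 = Nat.card (D1.map π) := by
    rw [← relIndex_ker, hk]
  have h2 := card_inf_mul (U : Subgroup (Cg J.x)) D1
  rw [h1, hc1] at h2
  have h3 : Nat.card ↥((U : Subgroup (Cg J.x)) ⊓ D1) ∣ 11 := by
    have a : Nat.card ↥((U : Subgroup (Cg J.x)) ⊓ D1) ∣ 1331 := hU ▸ card_dvd_of_le inf_le_left
    have b : Nat.card ↥((U : Subgroup (Cg J.x)) ⊓ D1) ∣ 132 := hc1 ▸ card_dvd_of_le inf_le_right
    simpa using Nat.dvd_gcd a b
  have h4 : Nat.card (D1.map π) ∣ 24 := hq ▸ card_subgroup_dvd_card _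
  have h5 : Nat.card (D1.map π) = 12 := by
    rcases (Nat.dvd_prime (by norm_num : Nat.Prime 11)).1 h3 with h | h
    · rw [h] at h2
      have := Nat.le_of_dvd (by norm_num) h4
      omega
    · rw [h] at h2; omega
  have h6 : (D1.map π).index = 2 := by
    have := (D1.map π).card_mul_index
    rw [h5, hq] at this
    omega
  have h7 : ((D1.map π).comap π).index = 2 := by
    rw [index_comap_of_surjective _ (QuotientGroup.mk'_surjective _), h6]
  refine no_index_two J (((D1.map π).comap π).map (Cg J.x).subtype) (map_subtype_le _) ?_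
  unfold relIndex subgroupOf
  rw [comap_map_eq_self_of_injective (Cg J.x).subtype_injective, h7]

end C132

theorem JF.c132 (J : JF G) {w : G} (hw : orderOf w = 11) {D : Subgroup G} (hD : D ≤ Cg w) :
    Nat.card D ≠ 132 := by
  intro hc
  rcases J.c11 w hw with h | h
  · obtain ⟨c, hcw⟩ := isConj_iff.1 h
    refine C132.core J (D := D.map (MulAut.conj c⁻¹).toMonoidHom) ?_ ?_
    · rintro _ ⟨d, hd, rfl⟩
      have h1 := C132.mem_Cg.1 (hD hd)
      rw [← hcw] at h1
      apply C132.mem_Cg.2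
      simp only [MulEquiv.coe_toMonoidHom, MulAut.conj_apply, inv_inv]
      calc J.x * (c⁻¹ * d * c) = c⁻¹ * (c * J.x * c⁻¹ * d) * c := by group
        _ = c⁻¹ * (d * (c * J.x * c⁻¹)) * c := by rw [h1]
        _ = c⁻¹ * d * c * J.x := by group
    · rw [← hc]
      exact card_map_of_injective (MulAut.conj c⁻¹).injective
  · have := card_dvd_of_le hD
    rw [hc, h] at this
    norm_num at this

end Cfsg.Agent.MX
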