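import Cfsg.Agent.MX.NF

/-! Project MX: the checker for the order of the simple normal subgroup. -/

set_option autoImplicit false

namespace Cfsg.Agent.MX

open Cfsg Subgroup

def d240 : List ℕ := [1, 2, 3, 4, 5, 6, 8, 10, 12, 15, 16, 20, 24, 30, 40, 48, 60, 80, 120, 240]
def d120 : List ℕ := [1, 2, 3, 4, 5, 6, 8, 10, 12, 15, 20, 24, 30, 40, 60, 120]
def d1344 : List ℕ := [1, 2, 3, 4, 6, 7, 8, 12, 14, 16, 21, 24, 28, 32, 42, 48, 56, 64, 84, 96, 112, 168, 192, 224, 336, 448, 672, 1344]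
def d2520 : List ℕ := [1, 2, 3, 4, 5, 6, 7, 8, 9, 10, 12, 14, 15, 18, 20, 21, 24, 28, 30, 35, 36, 40, 42, 45, 56, 60, 63, 70, 72, 84, 90, 105, 120, 126, 140, 168, 180, 210, 252, 280, 315, 360, 420, 504, 630, 840, 1260, 2520]

theorem mem_d240 {d : ℕ} (h : d ∣ 240) : d ∈ d240 := by
  have : ∀ x ∈ Nat.divisors 240, x ∈ d240 := by decide +kernel
  exact this d (Nat.mem_divisors.2 ⟨h, by norm_num⟩)
theorem mem_d120 {d : ℕ} (h : d ∣ 120) : d ∈ d120 := by
  have : ∀ x ∈ Nat.divisors 120, x ∈ d120 := by decide +kernel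
  exact this d (Nat.mem_divisors.2 ⟨h, by norm_num⟩)
theorem mem_d1344 {d : ℕ} (h : d ∣ 1344) : d ∈ d1344 := by
  have : ∀ x ∈ Nat.divisors 1344, x ∈ d1344 := by decide +kernel
  exact this d (Nat.mem_divisors.2 ⟨h, by norm_num⟩)
theorem mem_d2520 {d : ℕ} (h : d ∣ 2520) : d ∈ d2520 := by
  have : ∀ x ∈ Nat.divisors 2520, x ∈ d2520 := by decide +kernel
  exact this d (Nat.mem_divisors.2 ⟨h, by norm_num⟩)

def tiB (n : ℕ) : Bool :=
  !dvB 11 n || [11, 121, 1331].any fun w => d240.any fun d => cnt n w (w * d)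

/-- (order, prime, inertial index, centraliser order, modulus) -/
def tab : List (ℕ × ℕ × ℕ × ℕ × ℕ) := [(1740, 29, 2, 29, 2), (3480, 29, 4, 29, 2), (18560, 29, 2, 29, 2), (26970, 29, 2, 29, 2), (29670, 23, 2, 23, 2), (37120, 29, 4, 29, 2), (293040, 37, 2, 37, 2), (439560, 37, 3, 37, 9), (586080, 37, 4, 37, 2), (673992, 23, 2, 23, 2), (879120, 11, 5, 11, 13), (879120, 11, 10, 66, 17), (1758240, 11, 5, 22, 23), (1758240, 11, 5, 264, 16), (1758240, 11, 10, 11, 35), (2246640, 23, 22, 23, 2), (2860704, 43, 7, 43, 2), (3031040, 37, 2, 37, 2), (4546560, 37, 3, 37, 2), (5721408, 43, 14, 43, 2), (6062080, 37, 4, 37, 2), (9093120, 37, 6, 37, 2), (18186240, 37, 12, 37, 2), (32820480, 11, 5, 88, 37), (32820480, 11, 10, 44, 37), (49230720, 11, 10, 66, 37), (65640960, 37, 4, 37, 2), (98461440, 11, 5, 264, 37), (196922880, 5, 2, 840, 56), (196922880, 11, 10, 22, 37), (196922880, 11, 10, 264, 37), (1065222144, 43, 7, 43, 2), (2130444288,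 43, 14, 43, 2), (2133852160, 37, 2, 37, 2), (3200778240, 37, 3, 37, 2), (4267704320, 37, 4, 37, 2), (4601118720, 23, 22, 23, 37), (6401556480, 37, 6, 37, 2), (12803112960, 37, 12, 37, 2), (545732689920, 31, 10, 31, 37), (1670806241280, 29, 2, 29, 27), (3020496568320, 5, 2, 210, 16), (3020496568320, 5, 4, 105, 2)]

def tabKill (k : ℕ) (D : List ℕ) (p e c : ℕ) : Bool :=
  tab.any fun t => Nat.beq t.1 k && Nat.beq t.2.1 p && Nat.beq t.2.2.1 e && Nat.beq t.2.2.2.1 c &&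
    degKill k D p e c t.2.2.2.2

def nsq (n : ℕ) : Bool :=
  [13, 17, 19, 41, 47, 53, 59, 61, 67, 71, 73, 79, 83, 89, 97, 101, 103, 107].any fun m =>
    frc (n % m) fun r => !(List.range m).any fun x => Nat.beq (x * x % m) r

def ratB (a b : ℤ) (C : ℕ) : Bool :=
  (List.range 33).any fun i => decide (((i : ℤ) - 16) % 11 = a % 11) && (List.range 33).any fun j =>
    decide (((j : ℤ) - 16) % 11 = b % 11) &&
      decide (1 + ((i : ℤ) - 16) ^ 2 + ((j : ℤ) - 16) ^ 2 +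
        2 * (1 + ((i : ℤ) - 16) + ((j : ℤ) - 16)) ^ 2 ≤ (C : ℤ))

def interB (c7 c5 e5 : ℕ) : Bool :=
  (dvB 5 c7 == dvB 7 c5) && (!dvB 5 c7 || d2520.any fun a =>
    cnt (5 * c5 * e5) 7 a && cnt (21 * c7) 5 a &&
      (d2520.any fun a₂ => dvB 35 a₂ && dvB a₂ a && cnt (5 * c5) 7 a₂) &&
      (d2520.any fun a₃ => dvB 35 a₃ && dvB a₃ a && cnt (7 * c7) 5 a₃))

def interKill (k : ℕ) (D : List ℕ) (c7 : ℕ) : Bool :=
  dvB 5 k && d1344.all fun c5 => [2, 4].all fun e5 =>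
    !cnt k 5 (5 * c5 * e5) || !interB c7 c5 e5 || tabKill k D 5 e5 (5 * c5)

def noRat (a b : ℕ) (a' b' : ℤ) (C : ℕ) : Bool := !Nat.beq C 0 && !Nat.beq a b && !ratB a' b' C

def pairs (k : ℕ) (Dc : List ℕ) (C : ℕ) : Bool :=
  fl (Dc.filter fun d => Nat.beq (d % 7) 6) fun A => fl (Dc.filter fun d => Nat.beq (d % 7) 1) fun B =>
    A.all fun a =>
      (B.all fun b => !Nat.ble a b || !dvB (b + 1 - a) k || !memB (b + 1 - a) Dc ||
        nsq (a * b * (b + 1 - a)) ||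
        noRat a b (-(a : ℤ)) b C) &&
      (A.all fun b => !dvB (a + b - 1) k || !memB (a + b - 1) Dc ||
        nsq (a * b * (a + b - 1)) ||
        noRat a b (-(a : ℤ)) (-(b : ℤ)) C)

def triKill (k : ℕ) (D : List ℕ) (idx C : ℕ) : Bool :=
  dvB 7 k && d120.all fun c7 => !cnt k 7 (21 * c7) || !dvB (c7 * idx) 120 ||
    (fl (D.filter fun d => dvB (d * (7 * c7)) k) fun Dc => pairs k Dc C) || interKill k D c7

def kill (k idx : ℕ) (D : List ℕ) (F : List (ℕ × ℕ)) : Bool :=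
  triKill k D idx 0 || (F.any fun x => tabKill k D x.1 x.2 x.1) ||
    (dvB 11 k && !dvB 121 k && [1, 2, 3, 4, 6, 8, 24].all fun c => [2, 5, 10].all fun e =>
      !cnt k 11 (11 * c * e) || !dvB (c * e * idx) 240 || tabKill k D 11 e (11 * c) ||
        triKill k D idx (11 * c))

def isoAll (k : ℕ) : List (ℕ × ℕ) → List (ℕ × ℕ) → (List (ℕ × ℕ) → Bool) → Bool
  | [], F, f => f F
  | x :: t, F, f => cond (dvB x.1 k)
      ((List.range (x.2 + 1)).all fun e => frc e fun e =>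
        !(Nat.ble 2 e && dvB e x.2 && cnt k x.1 (x.1 * e)) || isoAll k t ((x.1, e) :: F) f)
      (isoAll k t F f)

def dv2 : List (ℕ × ℕ) → List ℕ
  | [] => [1]
  | x :: t => fl (dv2 t) fun l => fl ((List.range (x.2 + 1)).map fun i => x.1 ^ i) fun P =>
      l.flatMap fun d => P.map fun u => Nat.mul d u

theorem mem_dv2 {l : List (ℕ × ℕ)} (hl : ∀ x ∈ l, x.1.Prime) {d : ℕ} (h : d ∣ pv l) :
    d ∈ dv2 l := by
  induction l generalizing d with
  | nil => simpa [pv, dv2] using h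
  | cons x t ih =>
    obtain ⟨a, b, ha, hb, rfl⟩ := (Nat.dvd_mul).1 h
    obtain ⟨i, hi, rfl⟩ := (Nat.dvd_prime_pow (hl x (by simp))).1 ha
    simp only [dv2, fl_eq, List.mem_flatMap, List.mem_map, List.mem_range, List.mem_reverse]
    exact ⟨b, ih (fun y hy => hl y (by simp [hy])) hb, _, ⟨i, by omega, rfl⟩, mul_comm _ _⟩

def goodF (k q e d : ℕ) : Bool :=
  frc (Nat.mod d q) fun r => cond (Nat.beq r 0) true
    (cond (Nat.beq r 1 || Nat.beq (Nat.succ r) q || Nat.beq r e || Nat.beq (Nat.add r e) q)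
      (good k q e d) false)

theorem goodF_of {k q e d : ℕ} (h : good k q e d = true) : goodF k q e d = true := by
  have h' := h
  simp only [good, Bool.and_eq_true, Bool.or_eq_true, Nat.beq_eq] at h'
  rw [goodF, frc_eq, h]
  change cond (Nat.beq (d % q) 0) true (cond (Nat.beq (d % q) 1 || Nat.beq (d % q + 1) q ||
    Nat.beq (d % q) e || Nat.beq (d % q + e) q) true false) = true
  simp only [Bool.cond_eq_ite, Bool.or_eq_true, Nat.beq_eq]
  have := h'.1.1
  split_ifs <;> tauto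

def degP (k : ℕ) (F : List (ℕ × ℕ)) (d : ℕ) : Bool :=
  frc d fun d => cond (Nat.blt (Nat.mul d d) k)
    (cond (F.all fun x => goodF k x.1 x.2 d) (dvB d k && Nat.ble 2 d) false) false

theorem degP_of {k d : ℕ} {F : List (ℕ × ℕ)} (h1 : d ∣ k) (h2 : 2 ≤ d) (h3 : d * d < k)
    (h4 : ∀ x ∈ F, good k x.1 x.2 d = true) : degP k F d = true := by
  have e1 : Nat.blt (Nat.mul d d) k = true := by rw [Nat.blt_eq]; exact h3
  have e2 : (F.all fun x => goodF k x.1 x.2 d) = true :=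
    List.all_eq_true.2 fun x hx => goodF_of (h4 x hx)
  rw [degP, frc_eq, e1, e2]
  simp [dvB_iff, h1, h2]

def degs (fac : List (ℕ × ℕ)) (k : ℕ) (F : List (ℕ × ℕ)) : List ℕ := (dv2 fac).filter (degP k F)

def copB (k n : ℕ) : Bool := !dvB 7 k && dvB 7 n && ((dvB 11 k && !dvB 1331 k) || dvB 9 k)

def nsB (k : ℕ) : Bool := !dvB 5 k && !dvB 7 k && !dvB 23 k && !dvB 31 k

def top (p0 e0 : ℕ) (fac : List (ℕ × ℕ)) (n : ℕ) : Bool :=
  !cnt n p0 (p0 * e0) || Nat.beq n 86775571046077562880 || Nat.beq n 97598130094080 || !tiB n ||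
    (List.range (e0 + 1)).all fun e => !(Nat.ble 2 e && dvB e e0) ||
      frc (e0 / e) fun idx => frc (n / idx) fun k =>
        Nat.beq k (p0 * e) || !tiB k || copB k n || nsB k ||
          isoAll k isoL [] fun F => fl (degs fac k F) fun D => kill k idx D F

def PR' : List (ℕ × ℕ) :=
  [(43, 1), (37, 1), (31, 1), (29, 1), (23, 1), (11, 3), (7, 1), (5, 1), (3, 3)]

def PR : List (ℕ × ℕ) := (2, 21) :: PR'

theorem allF_PR {f : List (ℕ × ℕ) → ℕ → Bool}
    (h : ∀ i < 22, allF PR' [(2, i)] (2 ^ i) f = true) : allF PR [] 1 f = true := by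
  simp only [PR, allF, frc_eq, List.all_eq_true, List.mem_range, one_mul]
  exact h

end Cfsg.Agent.MX
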