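import Cfsg.Agent.MX.Chk

set_option autoImplicit false
set_option Elab.async false

namespace Cfsg.Agent.MX

theorem chk37_0 : allF PR' [(2, 0)] (2 ^ 0) (top 37 12) = true := by decide +kernel
theorem chk37_1 : allF PR' [(2, 1)] (2 ^ 1) (top 37 12) = true := by decide +kernel
theorem chk37_2 : allF PR' [(2, 2)] (2 ^ 2) (top 37 12) = true := by decide +kernel
theorem chk37_3 : allF PR' [(2, 3)] (2 ^ 3) (top 37 12) = true := by decide +kernel
theorem chk37_4 : allF PR' [(2, 4)] (2 ^ 4) (top 37 12) = true := by decide +kernel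
theorem chk37_5 : allF PR' [(2, 5)] (2 ^ 5) (top 37 12) = true := by decide +kernel
theorem chk37_6 : allF PR' [(2, 6)] (2 ^ 6) (top 37 12) = true := by decide +kernel
theorem chk37_7 : allF PR' [(2, 7)] (2 ^ 7) (top 37 12) = true := by decide +kernel
theorem chk37_8 : allF PR' [(2, 8)] (2 ^ 8) (top 37 12) = true := by decide +kernel
theorem chk37_9 : allF PR' [(2, 9)] (2 ^ 9) (top 37 12) = true := by decide +kernel
theorem chk37_10 : allF PR' [(2, 10)] (2 ^ 10) (top 37 12) = true := by decide +kernel
theorem chk37_11 : allF PR' [(2, 11)] (2 ^ 11) (top 37 12) = true := by decide +kernel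
theorem chk37_12 : allF PR' [(2, 12)] (2 ^ 12) (top 37 12) = true := by decide +kernel
theorem chk37_13 : allF PR' [(2, 13)] (2 ^ 13) (top 37 12) = true := by decide +kernel
theorem chk37_14 : allF PR' [(2, 14)] (2 ^ 14) (top 37 12) = true := by decide +kernel
theorem chk37_15 : allF PR' [(2, 15)] (2 ^ 15) (top 37 12) = true := by decide +kernel
theorem chk37_16 : allF PR' [(2, 16)] (2 ^ 16) (top 37 12) = true := by decide +kernel
theorem chk37_17 : allF PR' [(2, 17)] (2 ^ 17) (top 37 12) = true := by decide +kernel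
theorem chk37_18 : allF PR' [(2, 18)] (2 ^ 18) (top 37 12) = true := by decide +kernel
theorem chk37_19 : allF PR' [(2, 19)] (2 ^ 19) (top 37 12) = true := by decide +kernel
theorem chk37_20 : allF PR' [(2, 20)] (2 ^ 20) (top 37 12) = true := by decide +kernel
theorem chk37_21 : allF PR' [(2, 21)] (2 ^ 21) (top 37 12) = true := by decide +kernel

theorem chk37 : allF PR [] 1 (top 37 12) = true := allF_PR fun i hi => by
  interval_cases i
  exacts [chk37_0, chk37_1, chk37_2, chk37_3, chk37_4, chk37_5, chk37_6, chk37_7, chk37_8, chk37_9, chk37_10, chk37_11, chk37_12, chk37_13, chk37_14, chk37_15, chk37_16, chk37_17, chk37_18, chk37_19, chk37_20, chk37_21]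

end Cfsg.Agent.MX
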