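import Cfsg.Agent.MX.Chk

set_option autoImplicit false
set_option Elab.async false

namespace Cfsg.Agent.MX

theorem chk43_0 : allF PR' [(2, 0)] (2 ^ 0) (top 43 14) = true := by decide +kernel
theorem chk43_1 : allF PR' [(2, 1)] (2 ^ 1) (top 43 14) = true := by decide +kernel
theorem chk43_2 : allF PR' [(2, 2)] (2 ^ 2) (top 43 14) = true := by decide +kernel
theorem chk43_3 : allF PR' [(2, 3)] (2 ^ 3) (top 43 14) = true := by decide +kernel
theorem chk43_4 : allF PR' [(2, 4)] (2 ^ 4) (top 43 14) = true := by decide +kernel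
theorem chk43_5 : allF PR' [(2, 5)] (2 ^ 5) (top 43 14) = true := by decide +kernel
theorem chk43_6 : allF PR' [(2, 6)] (2 ^ 6) (top 43 14) = true := by decide +kernel
theorem chk43_7 : allF PR' [(2, 7)] (2 ^ 7) (top 43 14) = true := by decide +kernel
theorem chk43_8 : allF PR' [(2, 8)] (2 ^ 8) (top 43 14) = true := by decide +kernel
theorem chk43_9 : allF PR' [(2, 9)] (2 ^ 9) (top 43 14) = true := by decide +kernel
theorem chk43_10 : allF PR' [(2, 10)] (2 ^ 10) (top 43 14) = true := by decide +kernel
theorem chk43_11 : allF PR' [(2, 11)] (2 ^ 11) (top 43 14) = true := by decide +kernel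
theorem chk43_12 : allF PR' [(2, 12)] (2 ^ 12) (top 43 14) = true := by decide +kernel
theorem chk43_13 : allF PR' [(2, 13)] (2 ^ 13) (top 43 14) = true := by decide +kernel
theorem chk43_14 : allF PR' [(2, 14)] (2 ^ 14) (top 43 14) = true := by decide +kernel
theorem chk43_15 : allF PR' [(2, 15)] (2 ^ 15) (top 43 14) = true := by decide +kernel
theorem chk43_16 : allF PR' [(2, 16)] (2 ^ 16) (top 43 14) = true := by decide +kernel
theorem chk43_17 : allF PR' [(2, 17)] (2 ^ 17) (top 43 14) = true := by decide +kernel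
theorem chk43_18 : allF PR' [(2, 18)] (2 ^ 18) (top 43 14) = true := by decide +kernel
theorem chk43_19 : allF PR' [(2, 19)] (2 ^ 19) (top 43 14) = true := by decide +kernel
theorem chk43_20 : allF PR' [(2, 20)] (2 ^ 20) (top 43 14) = true := by decide +kernel
theorem chk43_21 : allF PR' [(2, 21)] (2 ^ 21) (top 43 14) = true := by decide +kernel

theorem chk43 : allF PR [] 1 (top 43 14) = true := allF_PR fun i hi => by
  interval_cases i
  exacts [chk43_0, chk43_1, chk43_2, chk43_3, chk43_4, chk43_5, chk43_6, chk43_7, chk43_8, chk43_9, chk43_10, chk43_11, chk43_12, chk43_13, chk43_14, chk43_15, chk43_16, chk43_17, chk43_18, chk43_19, chk43_20, chk43_21]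

end Cfsg.Agent.MX
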