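import Cfsg.Agent.MX.Chk

/-! Project MX: soundness of the checker. -/

set_option autoImplicit false

namespace Cfsg.Agent.MX

open Cfsg Subgroup

variable {K : Type*} [Group K]

theorem tabKill_sound {D : List ℕ} {p e c : ℕ} (hD : ∀ d, IsDeg K d → d ∈ D)
    (h : DegEq K p e c) : tabKill (Nat.card K) D p e c = false := by
  rw [← Bool.not_eq_true]
  intro hk
  obtain ⟨t, -, ht⟩ := List.any_eq_true.1 hk
  simp only [Bool.and_eq_true] at ht
  exact degKill_sound hD h ht.2

theorem nsq_sound {n : ℕ} (h : IsSquare n) : nsq n = false := by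
  rw [← Bool.not_eq_true]
  intro hk
  obtain ⟨m, hm, ht⟩ := List.any_eq_true.1 hk
  have hm0 : 0 < m := by
    simp only [List.mem_cons, List.not_mem_nil, or_false] at hm
    omega
  obtain ⟨r, rfl⟩ := h
  simp only [frc_eq, Bool.not_eq_true', ← Bool.not_eq_true, List.any_eq_true, List.mem_range,
    Nat.beq_eq] at ht
  exact ht ⟨r % m, Nat.mod_lt _ hm0, (Nat.mul_mod r r m).symm⟩

theorem ratB_of {a b : ℤ} {C : ℕ} (hC : C ≤ 264) (h : RatP a b C) : ratB a b C = true := by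
  obtain ⟨α, β, h1, h2, h3⟩ := h
  have hC' : (C : ℤ) ≤ 264 := by exact_mod_cast hC
  have ha : -16 ≤ α ∧ α ≤ 16 := by constructor <;> nlinarith [sq_nonneg β, sq_nonneg (1 + α + β)]
  have hb : -16 ≤ β ∧ β ≤ 16 := by constructor <;> nlinarith [sq_nonneg α, sq_nonneg (1 + α + β)]
  simp only [ratB, List.any_eq_true, List.mem_range, Bool.and_eq_true, decide_eq_true_eq]
  have e1 : (((α + 16).toNat : ℕ) : ℤ) - 16 = α := by omega
  have e2 : (((β + 16).toNat : ℕ) : ℤ) - 16 = β := by omega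
  refine ⟨(α + 16).toNat, by omega, by rw [e1]; exact h1, (β + 16).toNat, by omega,
    by rw [e2]; exact h2, by rw [e1, e2]; exact h3⟩

theorem RatP.symm {a b : ℤ} {C : ℕ} (h : RatP a b C) : RatP b a C := by
  obtain ⟨α, β, h1, h2, h3⟩ := h
  exact ⟨β, α, h2, h1, by linarith⟩

theorem interB_of {c7 c5 e5 : ℕ} (h7 : c7 ∣ 120) (h : interP c7 c5 e5) :
    interB c7 c5 e5 = true := by
  obtain ⟨h1, h2⟩ := h
  simp only [interB, Bool.and_eq_true, beq_iff_eq, Bool.or_eq_true, Bool.not_eq_true',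
    List.any_eq_true, dvB_iff]
  refine ⟨by rw [Bool.eq_iff_iff, dvB_iff, dvB_iff]; exact h1, ?_⟩
  by_cases h5 : 5 ∣ c7
  · right
    obtain ⟨a, a₂, a₃, p1, p2, p3, p4, p5, p6, p7, p8⟩ := h2 h5
    have ha : a ∣ 2520 := (cnt_iff.1 p6).1.trans (by
      have := Nat.mul_dvd_mul_left 21 h7
      simpa using this)
    exact ⟨a, mem_d2520 ha, ⟨⟨p5, p6⟩, a₂, mem_d2520 (p3.trans ha), ⟨p1, p3⟩, p7⟩, a₃,
      mem_d2520 (p4.trans ha), ⟨p2, p4⟩, p8⟩
  · left
    rw [← Bool.not_eq_true, dvB_iff]; exact h5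

theorem noRat_false {a b : ℕ} {a' b' : ℤ} {C : ℕ} (hC : C ≤ 264)
    (h : C ≠ 0 → a ≠ b → RatP a' b' C) : noRat a b a' b' C = false := by
  rw [← Bool.not_eq_true]
  intro hk
  simp only [noRat, Bool.and_eq_true, Bool.not_eq_true', ← Bool.not_eq_true, Nat.beq_eq] at hk
  exact hk.2 (ratB_of hC (h hk.1.1 hk.1.2))

theorem isSquare_nat {n : ℕ} (h : IsSquare (n : ℤ)) : IsSquare n := by
  obtain ⟨r, hr⟩ := h
  refine ⟨r.natAbs, ?_⟩
  have := congrArg Int.natAbs hr
  simpa [Int.natAbs_mul] using this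

theorem pairs_neg {k : ℕ} {Dc : List ℕ} {C : ℕ} (hC : C ≤ 264) {a b y : ℤ} (h : 1 + a + b = y)
    (ha : a ≡ 1 [ZMOD 7]) (hb : b ≡ 1 [ZMOD 7]) (da : a.natAbs ∈ Dc) (db : b.natAbs ∈ Dc)
    (dy : y.natAbs ∈ Dc) (dk : y.natAbs ∣ k) (hsq : IsSquare (-(a * b * y))) (hn : a < 0)
    (hr : C ≠ 0 → a.natAbs ≠ b.natAbs → RatP a b C) : pairs k Dc C = false := by
  rw [← Bool.not_eq_true]
  intro hk
  simp only [pairs, fl_eq, List.all_eq_true, List.mem_reverse, List.mem_filter, Nat.beq_eq,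
    Bool.and_eq_true, Bool.or_eq_true, Bool.not_eq_true', ← Bool.not_eq_true, memB_iff,
    Nat.ble_eq, dvB_iff] at hk
  unfold Int.ModEq at ha hb
  obtain ⟨A, rfl⟩ : ∃ A : ℕ, a = -(A : ℤ) := ⟨a.natAbs, by omega⟩
  simp only [Int.natAbs_neg, Int.natAbs_natCast] at da hr
  obtain ⟨k1, k2⟩ := hk A ⟨da, by omega⟩
  have hpos : 0 ≤ -(-(A : ℤ) * b * y) := hsq.nonneg
  rcases lt_or_ge b 0 with hb0 | hb0
  · obtain ⟨B, rfl⟩ : ∃ B : ℕ, b = -(B : ℤ) := ⟨b.natAbs, by omega⟩
    simp only [Int.natAbs_neg, Int.natAbs_natCast] at db hr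
    have hy : y = -((A + B - 1 : ℕ) : ℤ) := by omega
    rw [hy] at dy hsq dk
    simp only [Int.natAbs_neg, Int.natAbs_natCast] at dy dk
    have s1 : nsq (A * B * (A + B - 1)) = false := nsq_sound (isSquare_nat (by
      convert hsq using 1
      rw [Nat.cast_mul, Nat.cast_mul]; ring))
    rcases k2 B ⟨db, by omega⟩ with ((k | k) | k) | k
    · exact k dk
    · exact k dy
    · rw [s1] at k; exact Bool.noConfusion k
    · rw [noRat_false hC hr] at k; exact Bool.noConfusion k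
  · obtain ⟨B, rfl⟩ : ∃ B : ℕ, b = (B : ℤ) := ⟨b.natAbs, by omega⟩
    simp only [Int.natAbs_natCast] at db hr
    have hB : 0 < B := by omega
    have hA : 0 < A := by omega
    have hy0 : 0 < y := by
      rcases lt_trichotomy y 0 with h0 | h0 | h0
      · exfalso
        have : 0 < (A : ℤ) * B * (-y) := by
          have : (0 : ℤ) < A := by omega
          have : (0 : ℤ) < B := by omega
          have : 0 < -y := by omega
          positivity
        linarith
      · omega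
      · exact h0
    have hy : y = ((B + 1 - A : ℕ) : ℤ) := by omega
    rw [hy] at dy hsq dk
    simp only [Int.natAbs_natCast] at dy dk
    have s1 : nsq (A * B * (B + 1 - A)) = false := nsq_sound (isSquare_nat (by
      convert hsq using 1
      rw [Nat.cast_mul, Nat.cast_mul]; ring))
    rcases k1 B ⟨db, by omega⟩ with (((k | k) | k) | k) | k
    · exact k (by omega)
    · exact k dk
    · exact k dy
    · rw [s1] at k; exact Bool.noConfusion k
    · rw [noRat_false hC hr] at k; exact Bool.noConfusion k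

theorem pairs_sound {k : ℕ} {Dc : List ℕ} {C : ℕ} (hC : C ≤ 264) {a b y : ℤ} (h : 1 + a + b = y)
    (ha : a ≡ 1 [ZMOD 7]) (hb : b ≡ 1 [ZMOD 7]) (da : a.natAbs ∈ Dc) (db : b.natAbs ∈ Dc)
    (dy : y.natAbs ∈ Dc) (dk : y.natAbs ∣ k) (hsq : IsSquare (-(a * b * y)))
    (hr : C ≠ 0 → a.natAbs ≠ b.natAbs → RatP a b C) : pairs k Dc C = false := by
  rcases lt_or_ge a 0 with h1 | h1
  · exact pairs_neg hC h ha hb da db dy dk hsq h1 hr
  rcases lt_or_ge b 0 with h2 | h2
  · exact pairs_neg hC (by linarith) hb ha db da dy dk (by convert hsq using 2; ring) h2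
      fun h0 hne => (hr h0 hne.symm).symm
  exfalso
  have hpos : 0 ≤ -(a * b * y) := hsq.nonneg
  unfold Int.ModEq at ha hb
  have : 0 < a * b * y := by
    have : 0 < a := by omega
    have : 0 < b := by omega
    have : 0 < y := by omega
    positivity
  linarith

variable {idx c11 e11 c7 c5 e5 : ℕ} {a b y : ℤ}

theorem triKill_sound (N : NF K idx c11 e11 c7 c5 e5 a b y) {D : List ℕ}
    (hD : ∀ d, IsDeg K d → d ∈ D) {C : ℕ} (hC : C ≤ 264)
    (hr : 7 ∣ Nat.card K → C ≠ 0 → a.natAbs ≠ b.natAbs → RatP a b C) :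
    triKill (Nat.card K) D idx C = false := by
  rw [← Bool.not_eq_true]
  intro hk
  simp only [triKill, Bool.and_eq_true, dvB_iff, List.all_eq_true, Bool.or_eq_true,
    Bool.not_eq_true', ← Bool.not_eq_true, fl_eq] at hk
  obtain ⟨h7, hk⟩ := hk
  obtain ⟨p1, p2, p3, p4, p5, p6, p7, p8, p9, q1, q2, q3, q4⟩ := N.h7 h7
  rcases hk c7 (mem_d120 p1) with ((k | k) | k) | k
  · exact k p2
  · exact k p3
  · rw [pairs_sound hC p4 p5 p6 ?_ ?_ ?_ (N.deg _ p9).1 q4 (hr h7)] at k
    · exact Bool.noConfusion k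
    all_goals simp only [List.mem_reverse, List.mem_filter, dvB_iff]
    exacts [⟨hD _ p7, q1⟩, ⟨hD _ p8, q2⟩, ⟨hD _ p9, q3⟩]
  · simp only [interKill, Bool.and_eq_true, dvB_iff, List.all_eq_true, Bool.or_eq_true,
      Bool.not_eq_true', ← Bool.not_eq_true] at k
    obtain ⟨h5, k⟩ := k
    obtain ⟨r1, r2, r3, r4⟩ := N.h5 h5
    rcases k c5 (mem_d1344 r1) e5 r2 with (k | k) | k
    · exact k r3
    · exact k (interB_of p1 (N.h57 h5 h7))
    · rw [tabKill_sound hD r4] at k; exact Bool.noConfusion k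

theorem kill_sound (N : NF K idx c11 e11 c7 c5 e5 a b y) {D : List ℕ}
    (hD : ∀ d, IsDeg K d → d ∈ D) {F : List (ℕ × ℕ)} (hF : ∀ x ∈ F, DegEq K x.1 x.2 x.1) :
    kill (Nat.card K) idx D F = false := by
  rw [← Bool.not_eq_true]
  intro hk
  simp only [kill, Bool.and_eq_true, dvB_iff, List.all_eq_true, Bool.or_eq_true,
    Bool.not_eq_true', ← Bool.not_eq_true, List.any_eq_true] at hk
  rcases hk with (k | ⟨x, hx, k⟩) | ⟨⟨h1, h2⟩, k⟩
  · rw [triKill_sound N hD (by norm_num) (fun _ h => absurd rfl h)] at k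
    exact Bool.noConfusion k
  · rw [tabKill_sound hD (hF x hx)] at k; exact Bool.noConfusion k
  · obtain ⟨r1, r2, r3, r4, r5⟩ := N.h11 h1 h2
    rcases k c11 r1 e11 r2 with ((k | k) | k) | k
    · exact k r3
    · exact k r4
    · rw [tabKill_sound hD r5] at k; exact Bool.noConfusion k
    · have : 11 * c11 ≤ 264 := by
        simp only [List.mem_cons, List.not_mem_nil, or_false] at r1
        omega
      rw [triKill_sound N hD this fun h7 _ hne => N.h711 h7 h1 h2 hne] at k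
      exact Bool.noConfusion k

theorem isoAll_sound {k : ℕ} {P : ℕ × ℕ → Prop} {l F : List (ℕ × ℕ)} {f : List (ℕ × ℕ) → Bool}
    (hl : ∀ x ∈ l, x.1 ∣ k → ∃ e, e ∣ x.2 ∧ 2 ≤ e ∧ cnt k x.1 (x.1 * e) = true ∧ P (x.1, e))
    (h0 : ∀ x ∈ l, 0 < x.2) (hF : ∀ x ∈ F, P x) (h : isoAll k l F f = true) :
    ∃ F', (∀ x ∈ F', P x) ∧ f F' = true := by
  induction l generalizing F with
  | nil => exact ⟨F, hF, h⟩
  | cons x t ih =>
    have ih' := fun F => @ih F (fun y hy => hl y (by simp [hy])) (fun y hy => h0 y (by simp [hy]))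
    by_cases hx : x.1 ∣ k
    · obtain ⟨e, h1, h2, h3, h4⟩ := hl x (by simp) hx
      simp only [isoAll, dvB_iff.2 hx, cond_true, List.all_eq_true, List.mem_range, frc_eq,
        Bool.or_eq_true, Bool.not_eq_true', ← Bool.not_eq_true, Bool.and_eq_true, Nat.ble_eq,
        dvB_iff] at h
      rcases h e (Nat.lt_succ_of_le (Nat.le_of_dvd (h0 x (by simp)) h1)) with h | h
      · exact absurd ⟨⟨h2, h1⟩, h3⟩ h
      · refine ih' _ (fun y hy => ?_) h
        rcases List.mem_cons.1 hy with rfl | hy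
        exacts [h4, hF y hy]
    · have : dvB x.1 k = false := by rw [← Bool.not_eq_true, dvB_iff]; exact hx
      simp only [isoAll, this, cond_false] at h
      exact ih' _ hF h

theorem top_sound (N : NF K idx c11 e11 c7 c5 e5 a b y) {p0 e0 e n : ℕ}
    (H : allF PR [] 1 (top p0 e0) = true) (hn : n ∣ 86775571046077562880)
    (h1 : cnt n p0 (p0 * e0) = true) (h2 : n ≠ 86775571046077562880) (h3 : n ≠ 97598130094080)
    (h4 : tiB n = true) (he0 : 0 < e0) (he : 2 ≤ e) (hi : e0 = idx * e)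
    (hk : n = idx * Nat.card K)
    (h5 : Nat.card K ≠ p0 * e) (h6 : tiB (Nat.card K) = true) (h7 : copB (Nat.card K) n = false)
    (h8 : nsB (Nat.card K) = false) : False := by
  obtain ⟨fac, hf, hp, ht⟩ := allF_sound H (by decide) (by simp) rfl (d := n)
    (by have : pv PR = 86775571046077562880 := by decide +kernel
        rwa [this])
  rw [one_mul] at hp ht
  have hidx : 0 < idx := Nat.pos_of_ne_zero fun h => by simp [h] at hi; omega
  have e1 : e0 / e = idx := by rw [hi, Nat.mul_div_cancel _ (by omega)]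
  have e2 : n / idx = Nat.card K := by rw [hk, Nat.mul_div_cancel_left _ hidx]
  simp only [top, h1, h4, Bool.not_true, Bool.false_or, Bool.or_false, Bool.or_eq_true, Nat.beq_eq,
    h2, h3, false_or, List.all_eq_true, List.mem_range, frc_eq] at ht
  have ht := ht e (by nlinarith)
  simp only [e1, e2, h6, h7, h8, Bool.not_true, Bool.not_eq_true',
    ← Bool.not_eq_true, Bool.and_eq_true, Nat.ble_eq, dvB_iff, h5, false_or,
    Bool.false_eq_true, or_false] at ht
  rcases ht with ht | ht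
  · exact ht ⟨he, hi ▸ Dvd.intro_left _ rfl⟩
  obtain ⟨F, hF, hk'⟩ := isoAll_sound (P := fun x => (∀ d, IsDeg K d →
    good (Nat.card K) x.1 x.2 d = true) ∧ DegEq K x.1 x.2 x.1) N.iso (by decide) (by simp) ht
  rw [fl_eq, kill_sound N (fun d hd => ?_) fun x hx => (hF x hx).2] at hk'
  · exact Bool.noConfusion hk'
  obtain ⟨d1, d2, d3⟩ := N.deg d hd
  simp only [List.mem_reverse, degs, List.mem_filter]
  exact ⟨mem_dv2 hf (hp ▸ hk ▸ d1.trans (Dvd.intro_left _ rfl)),
    degP_of d1 d2 d3 fun x hx => (hF x hx).1 d hd⟩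

end Cfsg.Agent.MX
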