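import Cfsg.Agent.MX.Defs
import Cfsg.Agent.H35.Principal
import Cfsg.Agent.S4441
import Cfsg.Agent.S0907

set_option autoImplicit false

namespace Cfsg.Agent.MX

open Cfsg Subgroup

variable {K : Type*} [Group K] [Finite K]

theorem degEq {p : ℕ} (hp : p.Prime) (h2 : p ≠ 2) {x : K} (hx : orderOf x = p)
    (hsq : ¬ p ^ 2 ∣ Nat.card K) {e : ℕ} (he : Nat.card (Ng x) = e * Nat.card (Cg x))
    (he2 : 2 ≤ e) : DegEq K p e (Nat.card (Cg x)) := by
  classical
  haveI : Fact p.Prime := ⟨hp⟩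
  obtain ⟨S, rfl⟩ := H35.exists_setup hx hsq
  have hV : 0 < Nat.card S.V := Nat.card_pos
  have hidx : e = S.V.index := by
    have h1 := S.card_normalizer
    have h3 := S.card_centralizer
    have h4 := S.V.card_mul_index
    have h5 : Nat.card (Ng S.x) = p * Nat.card S.K := h1
    have h6 : Nat.card (Cg S.x) = p * Nat.card S.V := h3
    rw [h5, h6, ← h4] at he
    have h7 : (p * Nat.card S.V) * S.V.index = (p * Nat.card S.V) * e := by
      rw [mul_assoc, he]; ring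
    exact (Nat.eq_of_mul_eq_mul_left (Nat.mul_pos hp.pos hV) h7).symm
  subst hidx
  obtain ⟨B, hB⟩ := S.exists_principal
  obtain ⟨θ, hθ⟩ := B.nonempty_Y
  have hdiv : ∀ d : ℕ, d ∣ (centralizer ({S.x} : Set K)).index →
      d * Nat.card (Cg S.x) ∣ Nat.card K := by
    intro d hd
    rw [← (Cg S.x).index_mul_card]
    exact Nat.mul_dvd_mul_right hd _
  have hsgn : ∀ (s : ℤ) (n : ℕ), (s = 1 ∨ s = -1) → (s * (n : ℤ)).natAbs = n := by
    rintro s n (rfl | rfl) <;> simp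
  have hmod : ∀ (s : ℤ) (n m : ℤ), (s = 1 ∨ s = -1) → n ≡ s * m [ZMOD p] → s * n ≡ m [ZMOD p] := by
    intro s n m hs h
    have h1 := h.mul_left s
    have h3 : s * (s * m) = m := by rcases hs with rfl | rfl <;> ring
    rwa [h3] at h1
  have hne : ∀ χ : IrrCharacter K, χ ≠ H35.triv K → (χ : K → ℂ) ≠ fun _ => 1 := by
    intro χ h h1
    exact h (Subtype.ext h1)
  refine ⟨((B.X.erase (H35.triv K)).toList).map
      (fun ψ => B.δ ψ * (charDegree (ψ : K → ℂ) : ℤ)),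
    B.ε * (charDegree (θ : K → ℂ) : ℤ), ?_, ?_, ?_, ?_, ?_, ?_⟩
  · rw [List.length_map, Finset.length_toList, Finset.card_erase_add_one hB, B.cardX']
  · rw [Finset.sum_map_toList, B.degree_eq hθ, ← Finset.add_sum_erase _ _ hB, B.δ_triv hB,
      H35.degree_triv]
    simp
  · intro a ha
    obtain ⟨ψ, hψ, rfl⟩ := List.mem_map.mp ha
    rw [Finset.mem_toList, Finset.mem_erase] at hψ
    have hs := B.δ_sign ψ hψ.2
    rw [hsgn _ _ hs]
    refine ⟨⟨ψ, hne ψ hψ.1, rfl⟩, hmod _ _ _ hs ?_, hdiv _ (B.degX_dvd hψ.2)⟩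
    rw [mul_one]
    exact B.degX' hψ.2
  · rw [hsgn _ _ B.ε_sign]
    refine ⟨θ, hne θ ?_, rfl⟩
    rintro rfl
    exact Finset.disjoint_left.mp B.disj hB hθ
  · exact hmod _ _ _ B.ε_sign (B.degY' hθ)
  · rw [hsgn _ _ B.ε_sign]
    exact hdiv _ (B.degY_dvd hθ)

end Cfsg.Agent.MX
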