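import Cfsg.Agent.MX.Defs
import Cfsg.Agent.S0876
import Cfsg.Agent.S0960
import Cfsg.Agent.H32.DefectCard
import Cfsg.Agent.H86.Val

set_option autoImplicit false

namespace Cfsg.Agent.MX

open Cfsg Subgroup

variable {K : Type*} [Group K] [Finite K]

namespace F1

theorem cg_eq {q : ℕ} {x : K} (hx : orderOf x = q) (hC : Nat.card (Cg x) = q) : Cg x = zpowers x :=
  (eq_of_le_of_card_ge (zpowers_le.2 (mem_centralizer_singleton_iff.2 rfl))
    (by rw [hC, Nat.card_zpowers, hx])).symm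

theorem mem_of_comm {q : ℕ} (hq : q.Prime) {x : K} (hx : orderOf x = q) (hC : Nat.card (Cg x) = q) {z g : K}
    (hz : z ∈ zpowers x) (h1 : z ≠ 1) (h : g * z = z * g) : g ∈ zpowers x := by
  have ho : orderOf z = q :=
    ((Nat.dvd_prime hq).1 (hx ▸ orderOf_dvd_of_mem_zpowers hz)).resolve_left (mt orderOf_eq_one_iff.1 h1)
  have e : zpowers z = zpowers x :=
    eq_of_le_of_card_ge (zpowers_le.2 hz) (by rw [Nat.card_zpowers, Nat.card_zpowers, hx, ho])
  obtain ⟨k, hk⟩ := mem_zpowers_iff.1 (e ▸ mem_zpowers x : x ∈ zpowers z)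
  rw [← cg_eq hx hC, mem_centralizer_singleton_iff, ← hk]
  exact (Commute.zpow_right h k).eq

theorem exists_sylow {q : ℕ} [hq : Fact q.Prime] {x : K} (hx : orderOf x = q) (hC : Nat.card (Cg x) = q) :
    ∃ P : Sylow q K, (P : Subgroup K) = zpowers x := by
  have hp : IsPGroup q (zpowers x) := IsPGroup.of_card (n := 1) (by rw [Nat.card_zpowers, hx, pow_one])
  obtain ⟨P, hP⟩ := hp.exists_le_sylow
  refine ⟨P, le_antisymm (fun y hy => ?_) hP⟩
  have hx1 : x ≠ 1 := fun h => hq.out.ne_one (by rw [← hx, h, orderOf_one])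
  haveI : Nontrivial P := ⟨⟨⟨x, hP (mem_zpowers x)⟩, 1, fun h => hx1 (congrArg Subtype.val h)⟩⟩
  haveI := P.isPGroup'.center_nontrivial
  obtain ⟨⟨z, hz⟩, hz1⟩ := exists_ne (1 : center P)
  have hzx : (z : K) ∈ zpowers x := by
    rw [← cg_eq hx hC, mem_centralizer_singleton_iff]
    exact (congrArg Subtype.val (mem_center_iff.1 hz ⟨x, hP (mem_zpowers x)⟩)).symm
  exact mem_of_comm hq.out hx hC hzx (fun h => hz1 (Subtype.ext (Subtype.ext h)))
    (congrArg Subtype.val (mem_center_iff.1 hz ⟨y, hy⟩))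

theorem order_dvd {q : ℕ} [hq : Fact q.Prime] {x : K} (hx : orderOf x = q) (hC : Nat.card (Cg x) = q) {g : K}
    (hg : ¬ q ∣ (Cg g).index) : orderOf g ∣ q := by
  obtain ⟨P, hP⟩ := exists_sylow hx hC
  have h1 : q ∣ Nat.card (Cg g) := by
    have : q ∣ Nat.card (Cg g) * (Cg g).index := by
      rw [card_mul_index, ← hx]
      exact orderOf_dvd_natCard x
    exact ((Nat.Prime.dvd_mul hq.out).1 this).resolve_right hg
  obtain ⟨⟨y, hy⟩, hy'⟩ := exists_prime_orderOf_dvd_card' q h1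
  rw [← orderOf_coe] at hy'
  have hp : IsPGroup q (zpowers y) := IsPGroup.of_card (n := 1) (by rw [Nat.card_zpowers, pow_one]; exact hy')
  obtain ⟨Q, hQ⟩ := hp.exists_le_sylow
  obtain ⟨h, rfl⟩ := MulAction.exists_smul_eq K P Q
  have hm : h⁻¹ * y * h ∈ zpowers x := by
    have := hQ (mem_zpowers y)
    rw [Sylow.coe_subgroup_smul, mem_pointwise_smul_iff_inv_smul_mem, hP] at this
    simpa using this
  have h2 : h⁻¹ * y * h ≠ 1 := fun e => hq.out.ne_one (by
    have : y = 1 := by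
      have := congrArg (fun t => h * t * h⁻¹) e
      simpa [mul_assoc] using this
    exact hy'.symm.trans (orderOf_eq_one_iff.2 this))
  have h3 : h⁻¹ * g * h ∈ zpowers x := mem_of_comm hq.out hx hC hm h2 (by
    have := mem_centralizer_singleton_iff.1 hy
    calc h⁻¹ * g * h * (h⁻¹ * y * h) = h⁻¹ * (g * y) * h := by group
      _ = h⁻¹ * (y * g) * h := by rw [this]
      _ = _ := by group)
  have h4 := orderOf_dvd_of_mem_zpowers h3
  have h5 : orderOf (h⁻¹ * g * h) = orderOf g := by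
    have := MulEquiv.orderOf_eq (MulAut.conj h⁻¹) g
    simpa using this
  rwa [h5, hx] at h4

theorem mem_principal {q : ℕ} [hq : Fact q.Prime] {M : Ideal AlgInt} (hM : IsPModular q M) {x : K}
    (hx : orderOf x = q) (hC : Nat.card (Cg x) = q) (χ : IrrCharacter K) (hd : ¬ q ∣ charDegree (χ : K → ℂ)) :
    χ ∈ principalBlock M K := by
  haveI := hM.2.1
  intro g
  have hχ := H5.isCharacter_of_isIrr χ.2
  have h0 : (χ : K → ℂ) 1 ≠ 0 := by
    rw [← H32.cast_charDegree_irr]
    exact Nat.cast_ne_zero.2 (H32.charDegree_ne_zero χ)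
  have hi : ((χ : K → ℂ) 1)⁻¹ ∈ H32.locRing M := by
    rw [← H32.cast_charDegree_irr]
    exact H32.inv_natCast_mem_locRing hM hd
  have e : centralChar (fun _ : K => (1 : ℂ)) g - centralChar (χ : K → ℂ) g =
      ((Cg g).index : ℂ) * ((χ : K → ℂ) 1 - (χ : K → ℂ) g) * ((χ : K → ℂ) 1)⁻¹ := by
    simp only [centralChar]
    field_simp
  rw [← H32.mem_locMax, e]
  refine H32.mul_mem_locMax_right ?_ hi
  by_cases hg : q ∣ (Cg g).index
  · exact H32.mul_mem_locMax_right ((H32.natCast_mem_locMax_iff hM).2 hg)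
      (sub_mem (H32.char_mem_locRing hχ 1) (H32.char_mem_locRing hχ g))
  · refine H32.mul_mem_locMax_left (natCast_mem _ _) (H32.sub_mem_locMax_comm ?_)
    have hp : IsPPart q g g := by
      refine ⟨1, mul_one g, Commute.one_right g, ?_, by rw [orderOf_one]; exact hq.out.not_dvd_one⟩
      rcases (Nat.dvd_prime hq.out).1 (order_dvd hx hC hg) with h | h
      · exact ⟨0, by rw [h, pow_zero]⟩
      · exact ⟨1, by rw [h, pow_one]⟩
    have := S0876.apply_sub_mem hM hχ hp
    rwa [inv_mul_cancel] at this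

end F1

/-- self-centralising Sylow subgroup of prime order: every degree prime to `q` is in the
principal block -/
theorem IsDeg.f1 {q e : ℕ} (hq : q.Prime) (h2 : q ≠ 2) {x : K} (hx : orderOf x = q)
    (hC : Nat.card (Cg x) = q) (hN : Nat.card (Ng x) = e * q) {d : ℕ} (h : IsDeg K d) :
    q ∣ d ∨ (d : ℤ) ≡ 1 [ZMOD q] ∨ (d : ℤ) ≡ -1 [ZMOD q] ∨ (d : ℤ) ≡ e [ZMOD q] ∨
      (d : ℤ) ≡ -e [ZMOD q] := by
  haveI := Fact.mk hq
  obtain ⟨χ, -, rfl⟩ := h
  refine or_iff_not_imp_left.2 fun hd => ?_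
  obtain ⟨M, hM⟩ := H86.exists_isPModular hq
  obtain ⟨P, hP⟩ := F1.exists_sylow hx hC
  have hc : Nat.card P = q := by
    change Nat.card (P : Subgroup K) = q
    rw [hP, Nat.card_zpowers, hx]
  refine (S0960.result q M hM h2 P hc e ?_).2 χ (F1.mem_principal hM hx hC χ hd)
  rw [hP, H35.centralizer_zpowers]
  have hle : Cg x ≤ Ng x := by
    rw [Cg, ← H35.centralizer_zpowers]
    exact centralizer_le_normalizer _
  have h1 := ((Cg x).subgroupOf (Ng x)).card_mul_index
  rw [Nat.card_congr (subgroupOfEquivOfLe hle).toEquiv, hC, hN, mul_comm] at h1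
  exact Nat.eq_of_mul_eq_mul_right hq.pos h1

end Cfsg.Agent.MX
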