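import Cfsg.Agent.MX.Defs
import Cfsg.Agent.MX.Cop

set_option autoImplicit false

namespace Cfsg.Agent.MX

open Cfsg Subgroup

variable {G : Type*} [Group G] [Finite G]

namespace Fpf

theorem one {q : ℕ} (hq : q.Prime) {w : G} (hw : orderOf w = q) (hC : Cg w = zpowers w) {R : Subgroup G}
    (hn : w ∈ normalizer (R : Set G)) (hR : ¬ q ∣ Nat.card R) : Nat.card R ≡ 1 [MOD q] := by
  have h := card_modEq_fix hq hw hn
  have h1 : Nat.card ↥(R ⊓ Cg w) ∣ q := by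
    rw [← hw, ← Nat.card_zpowers, ← hC]
    exact card_dvd_of_le inf_le_right
  rcases (Nat.dvd_prime hq).1 h1 with e | e
  · rwa [e] at h
  · exact absurd (e ▸ card_dvd_of_le (inf_le_left : R ⊓ Cg w ≤ R)) hR

theorem arith {q r v : ℕ} (hq : q = 29 ∨ q = 37 ∨ q = 43) (hr : r.Prime) (hv : 0 < v)
    (hd : r ^ v ∣ 86775571046077562880) (h : r ^ v ≡ 1 [MOD q]) : q = 43 ∧ r = 2 ∧ v = 14 := by
  have e : 86775571046077562880 = 2 ^ 21 * 3 ^ 3 * 5 * 7 * 11 ^ 3 * 23 * 29 * 31 * 37 * 43 := by norm_num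
  have h1 : r ∣ 2 ^ 21 * 3 ^ 3 * 5 * 7 * 11 ^ 3 * 23 * 29 * 31 * 37 * 43 := e ▸ (dvd_pow_self r hv.ne').trans hd
  have k : ∀ {s : ℕ}, s.Prime → r ∣ s → r = s := fun hs h => (Nat.prime_dvd_prime_iff_eq hr hs).1 h
  have h2 : r = 2 ∨ r = 3 ∨ r = 5 ∨ r = 7 ∨ r = 11 ∨ r = 23 ∨ r = 29 ∨ r = 31 ∨ r = 37 ∨ r = 43 := by
    simp only [hr.dvd_mul] at h1
    rcases h1 with ((((((((h | h) | h) | h) | h) | h) | h) | h) | h) | h
    · simp [k Nat.prime_two (hr.dvd_of_dvd_pow h)]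
    · simp [k Nat.prime_three (hr.dvd_of_dvd_pow h)]
    · simp [k (by norm_num) h]
    · simp [k (by norm_num) h]
    · simp [k (s := 11) (by norm_num) (hr.dvd_of_dvd_pow h)]
    all_goals simp [k (by norm_num) h]
  have h3 : v < 22 := by
    by_contra h3
    have h4 := (pow_dvd_pow r (not_lt.1 h3)).trans hd
    rcases h2 with rfl | rfl | rfl | rfl | rfl | rfl | rfl | rfl | rfl | rfl <;> norm_num at h4
  have key : ∀ q ∈ [29, 37, 43], ∀ r ∈ [2, 3, 5, 7, 11, 23, 29, 31, 37, 43], ∀ v < 22, 0 < v →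
      86775571046077562880 % r ^ v = 0 → r ^ v % q = 1 % q → q = 43 ∧ r = 2 ∧ v = 14 := by decide +kernel
  exact key q (by simpa using hq) r (by simpa using h2) v h3 hv (Nat.mod_eq_zero_of_dvd hd) h

/-- the central elements of `R` with square one -/
def om (R : Subgroup G) : Subgroup G where
  carrier := {a | a ∈ R ∧ a ^ 2 = 1 ∧ ∀ b ∈ R, b * a = a * b}
  one_mem' := ⟨R.one_mem, by simp, by simp⟩
  mul_mem' := fun {a c} ⟨h1, h2, h3⟩ ⟨k1, k2, k3⟩ => ⟨R.mul_mem h1 k1, by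
    rw [Commute.mul_pow (k3 a h1), h2, k2, mul_one], fun b hb => by
    rw [← mul_assoc, h3 b hb, mul_assoc, k3 b hb, mul_assoc]⟩
  inv_mem' := fun {a} ⟨h1, h2, h3⟩ => ⟨R.inv_mem h1, by rw [inv_pow, h2, inv_one], fun b hb =>
    (Commute.inv_right (h3 b hb) :)⟩

theorem om_norm {R : Subgroup G} {w : G} (hn : w ∈ normalizer (R : Set G)) : w ∈ normalizer (om R : Set G) := by
  refine mem_normalizer_fintype fun a ⟨h1, h2, h3⟩ => ⟨(hn a).1 h1, by rw [conj_pow, h2]; simp, fun b hb => ?_⟩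
  have h4 := h3 _ (((normalizer (R : Set G)).inv_mem hn b).1 hb)
  calc b * (w * a * w⁻¹) = w * (w⁻¹ * b * w⁻¹⁻¹ * a) * w⁻¹ := by group
    _ = _ := by rw [h4]; group

theorem om_ne {R : Subgroup G} (hR : IsPGroup 2 R) (h : R ≠ ⊥) : om R ≠ ⊥ := by
  have := (nontrivial_iff_ne_bot R).2 h
  have := hR.center_nontrivial
  obtain ⟨c, hc⟩ := exists_prime_orderOf_dvd_card' (G := center R) 2 (by
    obtain ⟨n, hn, e⟩ := (hR.to_subgroup (center R)).nontrivial_iff_card.1 this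
    exact e ▸ dvd_pow_self 2 hn.ne')
  intro e
  have h1 : (c.1.1 : G) ∈ om R := ⟨c.1.2, by
    have := pow_orderOf_eq_one c
    rw [hc] at this
    exact congrArg (fun t : center R => t.1.1) this,
    fun b hb => congrArg Subtype.val (mem_center_iff.1 c.2 ⟨b, hb⟩)⟩
  rw [e, mem_bot] at h1
  rw [show c = 1 from Subtype.ext (Subtype.ext h1), orderOf_one] at hc
  omega

end Fpf

open Fpf

theorem JF.fpf (J : JF G) {q : ℕ} (hq : q = 29 ∨ q = 37 ∨ q = 43) {w : G} (hw : orderOf w = q)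
    {L : Subgroup G} (hn : w ∈ normalizer (L : Set G)) (hL : ¬ q ∣ Nat.card L) : L = ⊥ := by
  by_contra hne
  have hp : q.Prime := by rcases hq with rfl | rfl | rfl <;> norm_num
  have : Fact q.Prime := ⟨hp⟩
  have hC : Cg w = zpowers w := by
    rcases hq with rfl | rfl | rfl
    · exact (J.iso (29, 28) (by simp [isoL]) w hw).1
    · exact (J.iso (37, 12) (by simp [isoL]) w hw).1
    · exact (J.iso (43, 14) (by simp [isoL]) w hw).1
  obtain ⟨r, hr, hrL⟩ := Nat.exists_prime_and_dvd (mt (card_eq_one (H := L)).1 hne)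
  obtain ⟨R, hRL, hR, hU⟩ := cop_grp hp hr (U := zpowers w)
    (IsPGroup.of_card (n := 1) (by rw [Nat.card_zpowers, hw, pow_one])) (zpowers_le.2 hn) hL
  have hnR := hU (mem_zpowers w)
  have h1 : ¬ q ∣ Nat.card R := fun h => hL (h.trans (card_dvd_of_le hRL))
  have h2 := one hp hw hC hnR h1
  rw [hR] at h2
  obtain ⟨rfl, rfl, hv⟩ := arith hq hr (hr.factorization_pos_of_dvd Nat.card_pos.ne' hrL)
    (by rw [← hR, ← J.card_G]; exact card_subgroup_dvd_card R) h2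
  rw [hv] at hR
  have hpR : IsPGroup 2 R := .of_card hR
  have hle : om R ≤ R := fun _ h => h.1
  have hpA : IsPGroup 2 (om R) := hpR.to_le hle
  obtain ⟨j, hj⟩ := IsPGroup.iff_card.1 hpA
  have h3 := one hp hw hC (om_norm hnR) fun h => h1 (h.trans (card_dvd_of_le hle))
  have h4 : 0 < j := Nat.pos_of_ne_zero fun e => om_ne hpR
    (fun e' => by rw [e', card_bot] at hR; omega) (card_eq_one.1 (by rw [hj, e, pow_zero]))
  rw [hj] at h3
  obtain ⟨-, -, rfl⟩ := arith (Or.inr (Or.inr rfl)) Nat.prime_two h4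
    (by rw [← hj, ← J.card_G]; exact card_subgroup_dvd_card _) h3
  obtain ⟨T, hT⟩ := hpA.exists_le_sylow
  obtain ⟨V, ⟨-, -, hV⟩, hu⟩ := J.uniqV T
  have h5 : om R ≤ V := fun a ha => by
    obtain ⟨n, hn'⟩ := IsPGroup.iff_card.1 (hpA.to_subgroup (zpowers (⟨a, ha⟩ : om R)))
    have h6 : n ≤ 1 := by
      rw [Nat.card_zpowers] at hn'
      have : orderOf (⟨a, ha⟩ : om R) ∣ 2 ^ 1 := orderOf_dvd_of_pow_eq_one (Subtype.ext ha.2.1)
      exact (Nat.pow_dvd_pow_iff_le_right one_lt_two).1 (hn' ▸ this)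
    obtain ⟨B, hB, hB'⟩ := Sylow.exists_subgroup_card_pow_prime_le 2 (G := om R) (m := 11)
      (hj ▸ pow_dvd_pow 2 (by norm_num)) _ hn' (by omega)
    have h7 : B.map (om R).subtype ≤ om R := map_subtype_le B
    rw [← hu (B.map (om R).subtype) ⟨h7.trans hT, ⟨⟨⟨fun b c => Subtype.ext ((h7 c.2).2.2 b (h7 b.2).1)⟩⟩,
      fun b hb => (h7 hb).2.1⟩, by rw [card_map_of_injective (subtype_injective _), hB]⟩]
    exact ⟨_, hB' (mem_zpowers _), rfl⟩
  have := card_le_of_le h5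
  rw [hj, hV] at this
  omega

end Cfsg.Agent.MX
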