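import Cfsg.Agent.MX.Defs
import Cfsg.Agent.H49.Basic

set_option autoImplicit false

namespace Cfsg.Agent.MX

open Cfsg Subgroup

variable {K : Type*} [Group K] [Finite K]

namespace Inter

theorem exists_syl {L : Type*} [Group L] [Finite L] {q : ℕ} (hq : q.Prime) {P : Subgroup L} (hP : Nat.card P = q)
    (h : ¬ q ^ 2 ∣ Nat.card L) : ∃ S : Sylow q L, (S : Subgroup L) = P := by
  haveI := Fact.mk hq
  refine ⟨(IsPGroup.of_card (n := 1) (by rw [hP, pow_one])).toSylow fun e => h ?_, rfl⟩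
  rw [← P.card_mul_index, hP, sq]
  exact mul_dvd_mul_left _ e

theorem cnt {q : ℕ} (hq : q.Prime) {y : K} (hy : orderOf y = q) (h2 : ¬ q ^ 2 ∣ Nat.card K) {H : Subgroup K}
    (hH : y ∈ H) : Nat.card ↥(Ng y ⊓ H) ∣ Nat.card H ∧ (Nat.card H / Nat.card ↥(Ng y ⊓ H)) % q = 1 := by
  haveI := Fact.mk hq
  have hle : zpowers y ≤ H := zpowers_le.2 hH
  obtain ⟨S, hS⟩ := exists_syl (P := (zpowers y).subgroupOf H) hq
    (by rw [Nat.card_congr (subgroupOfEquivOfLe hle).toEquiv, Nat.card_zpowers, hy])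
    fun e => h2 (e.trans H.card_subgroup_dvd_card)
  have e1 := S.card_eq_index_normalizer
  have e2 : normalizer (S : Set H) = (Ng y).subgroupOf H := by
    rw [Ng, subgroupOf_normalizer_eq hle, ← hS]; rfl
  have e3 : Nat.card ↥(Ng y ⊓ H) = Nat.card ((Ng y).subgroupOf H) := by
    rw [← inf_subgroupOf_right]
    exact (Nat.card_congr (subgroupOfEquivOfLe inf_le_right).toEquiv).symm
  have e4 := ((Ng y).subgroupOf H).card_mul_index
  have e5 := card_sylow_modEq_one q H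
  rw [e1, e2] at e5
  refine ⟨card_dvd_of_le inf_le_right, ?_⟩
  rw [e3, ← e4, Nat.mul_div_cancel_left _ Nat.card_pos, e5, Nat.mod_eq_of_lt hq.one_lt]

theorem exists_comm {p : ℕ} (hp : p.Prime) {x y : K} (hx : orderOf x = p) (h1 : ¬ p ^ 2 ∣ Nat.card K)
    (h : p ∣ Nat.card (Cg y)) : ∃ g : K, Commute x (g * y * g⁻¹) := by
  haveI := Fact.mk hp
  obtain ⟨w, hw⟩ := exists_prime_orderOf_dvd_card' p h
  obtain ⟨S, hS⟩ := exists_syl (P := zpowers x) hp (by rw [Nat.card_zpowers, hx]) h1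
  obtain ⟨T, hT⟩ := exists_syl (P := zpowers (w : K)) hp (by rw [Nat.card_zpowers, orderOf_coe, hw]) h1
  obtain ⟨g, hg⟩ := MulAction.exists_smul_eq K T S
  have e : zpowers (g * w * g⁻¹) = zpowers x := by
    rw [← H49.cj_zpowers, ← hS, ← hT, ← hg]; rfl
  obtain ⟨n, hn⟩ := e.ge (mem_zpowers x)
  have c : Commute (w : K) y := mem_centralizer_singleton_iff.1 w.2
  refine ⟨g, ?_⟩
  rw [← hn]
  exact (c.map (MulAut.conj g)).zpow_left n

theorem card_C (g y : K) : Nat.card (Cg (g * y * g⁻¹)) = Nat.card (Cg y) := by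
  rw [← H49.card_cj g (Cg y), H49.cj_cent1]

theorem card_N (g y : K) : Nat.card (Ng (g * y * g⁻¹)) = Nat.card (Ng y) := by
  rw [← H49.card_cj g (Ng y), H49.cj_normalizer, H49.cj_zpowers]

theorem ord (g y : K) : orderOf (g * y * g⁻¹) = orderOf y := (MulAut.conj g).orderOf_eq y

theorem imp {p q : ℕ} (hp : p.Prime) {x y : K} (hx : orderOf x = p) (hy : orderOf y = q)
    (h1 : ¬ p ^ 2 ∣ Nat.card K) (h : p ∣ Nat.card (Cg y)) : q ∣ Nat.card (Cg x) := by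
  obtain ⟨g, hg⟩ := exists_comm hp hx h1 h
  rw [← hy, ← ord g y]
  exact orderOf_dvd_natCard _ (mem_centralizer_singleton_iff.2 hg.symm)

theorem C_le_N (x : K) : Cg x ≤ Ng x := fun g hg => by
  refine centralizer_le_normalizer _ fun a ha => ?_
  obtain ⟨n, rfl⟩ := ha
  exact (Commute.zpow_left (mem_centralizer_singleton_iff.1 hg).symm n).eq

end Inter

open Inter

theorem inter_iff {p q : ℕ} (hp : p.Prime) (hq : q.Prime) {x y : K}
    (hx : orderOf x = p) (hy : orderOf y = q) (h1 : ¬ p ^ 2 ∣ Nat.card K)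
    (h2 : ¬ q ^ 2 ∣ Nat.card K) : p ∣ Nat.card (Cg y) ↔ q ∣ Nat.card (Cg x) :=
  ⟨imp hp hx hy h1, imp hq hy hx h2⟩

theorem inter {p q : ℕ} (hp : p.Prime) (hq : q.Prime) (hpq : p ≠ q) {x y : K}
    (hx : orderOf x = p) (hy : orderOf y = q) (h1 : ¬ p ^ 2 ∣ Nat.card K)
    (h2 : ¬ q ^ 2 ∣ Nat.card K) (h : p ∣ Nat.card (Cg y)) :
    ∃ a a₂ a₃ : ℕ, p * q ∣ a₂ ∧ p * q ∣ a₃ ∧ a₂ ∣ a ∧ a₃ ∣ a ∧
      a ∣ Nat.card (Ng x) ∧ (Nat.card (Ng x) / a) % q = 1 ∧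
      a ∣ Nat.card (Ng y) ∧ (Nat.card (Ng y) / a) % p = 1 ∧
      a₂ ∣ Nat.card (Cg x) ∧ (Nat.card (Cg x) / a₂) % q = 1 ∧
      a₃ ∣ Nat.card (Cg y) ∧ (Nat.card (Cg y) / a₃) % p = 1 := by
  obtain ⟨g, hg⟩ := exists_comm hp hx h1 h
  rw [← card_C g y, ← card_N g y]
  rw [← ord g y] at hy
  generalize g * y * g⁻¹ = z at hg hy
  have xx : x ∈ Cg x := mem_centralizer_singleton_iff.2 rfl
  have zz : z ∈ Cg z := mem_centralizer_singleton_iff.2 rfl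
  have xz : x ∈ Cg z := mem_centralizer_singleton_iff.2 hg
  have zx : z ∈ Cg x := mem_centralizer_singleton_iff.2 hg.symm
  have dv : ∀ {H : Subgroup K}, x ∈ H → z ∈ H → p * q ∣ Nat.card H := fun a b =>
    ((Nat.coprime_primes hp hq).2 hpq).mul_dvd_of_dvd_of_dvd (hx ▸ orderOf_dvd_natCard _ a)
      (hy ▸ orderOf_dvd_natCard _ b)
  obtain ⟨a1, a2⟩ := cnt hq hy h2 (C_le_N x zx)
  obtain ⟨b1, b2⟩ := cnt hp hx h1 (C_le_N z xz)
  obtain ⟨c1, c2⟩ := cnt hq hy h2 zx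
  obtain ⟨d1, d2⟩ := cnt hp hx h1 xz
  rw [inf_comm] at b1 b2
  exact ⟨_, _, _, dv (H := Ng z ⊓ Cg x) ⟨C_le_N z xz, xx⟩ ⟨C_le_N z zz, zx⟩,
    dv (H := Ng x ⊓ Cg z) ⟨C_le_N x xx, xz⟩ ⟨C_le_N x zx, zz⟩,
    card_dvd_of_le (inf_le_inf_left _ (C_le_N x)),
    card_dvd_of_le (le_inf (inf_le_right.trans (C_le_N z)) inf_le_left), a1, a2, b1, b2, c1, c2, d1, d2⟩

end Cfsg.Agent.MX
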