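import Cfsg.Agent.MX.Defs
import Cfsg.Agent.H5.Complete

set_option autoImplicit false

namespace Cfsg.Agent.MX

open Cfsg Subgroup

variable {K : Type*} [Group K] [Fintype K]

/-- Frobenius: the sum of a character over the products of two conjugates of `t` -/
theorem sum_conj_mul (χ : IrrCharacter K) (t : K) :
    (∑ u : K, ∑ v : K, (χ : K → ℂ) ((u * t * u⁻¹) * (v * t * v⁻¹))) * (χ : K → ℂ) 1 =
      (Nat.card K : ℂ) ^ 2 * ((χ : K → ℂ) t) ^ 2 := by
  have h0 : (χ : K → ℂ) 1 ≠ 0 := H5.degree_ne_zero χ.2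
  simp only [H5.sum_irr_mul_conj_eq χ.2, H5.isClassFunction_of_isIrr χ.2 t, Finset.sum_const,
    Finset.card_univ, nsmul_eq_mul, Nat.card_eq_fintype_card]
  field_simp

/-- the arithmetic of Brauer's square condition -/
theorem sq_arith {a b y α β : ℤ} (ha : a ≠ 0) (hb : b ≠ 0) (hy : y ≠ 0) (h : 1 + a + b = y)
    (hα : α ≠ a) (he : (1 + α + β) ^ 2 * (a * b) = y * (a * b + α ^ 2 * b + β ^ 2 * a)) :
    IsSquare (-(a * b * y)) := by
  have hu : α - a ≠ 0 := sub_ne_zero.2 hα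
  have key : (a * (y - b) * (β - b) - a * b * (α - a)) ^ 2 = -(a * b * y) * (α - a) ^ 2 := by
    subst h
    linear_combination (-(a * (1 + a))) * he
  rw [← Rat.isSquare_intCast_iff]
  have hu' : ((α - a : ℤ) : ℚ) ≠ 0 := by exact_mod_cast hu
  refine ⟨((a * (y - b) * (β - b) - a * b * (α - a) : ℤ) : ℚ) / ((α - a : ℤ) : ℚ), ?_⟩
  rw [div_mul_div_comm, eq_div_iff (mul_ne_zero hu' hu'), ← sq, ← sq]
  exact_mod_cast key.symm

end Cfsg.Agent.MX
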