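import Cfsg.Agent.MX.Defs
import Cfsg.Agent.H44.Cores

set_option autoImplicit false

namespace Cfsg.Agent.MX

open Cfsg Subgroup

namespace KS

/-- elements of order `p` generate conjugate subgroups when `p ^ 2` does not divide the order -/
theorem conj_zp {H : Type*} [Group H] [Finite H] {p : ℕ} (hp : p.Prime) (h2 : ¬ p ^ 2 ∣ Nat.card H)
    {a b : H} (ha : orderOf a = p) (hb : orderOf b = p) : ∃ g : H, g⁻¹ * a * g ∈ zpowers b := by
  haveI := Fact.mk hp
  have pa : IsPGroup p (zpowers a) := IsPGroup.of_card (n := 1) (by rw [Nat.card_zpowers, ha, pow_one])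
  have pb : IsPGroup p (zpowers b) := IsPGroup.of_card (n := 1) (by rw [Nat.card_zpowers, hb, pow_one])
  obtain ⟨P, hP⟩ := pa.exists_le_sylow
  obtain ⟨Q, hQ⟩ := pb.exists_le_sylow
  obtain ⟨g, rfl⟩ := MulAction.exists_smul_eq H Q P
  obtain ⟨n, hn⟩ := IsPGroup.iff_card.1 Q.isPGroup'
  have hle : n ≤ 1 := by
    by_contra hc
    exact h2 ((pow_dvd_pow p (by omega)).trans (hn ▸ card_subgroup_dvd_card (Q : Subgroup H)))
  have e : zpowers b = Q := by
    refine eq_of_le_of_card_ge hQ ?_
    rw [hn, Nat.card_zpowers, hb]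
    calc p ^ n ≤ p ^ 1 := Nat.pow_le_pow_right hp.pos hle
      _ = p := pow_one p
  refine ⟨g, ?_⟩
  have := hP (mem_zpowers a)
  rw [Sylow.coe_subgroup_smul, mem_pointwise_smul_iff_inv_smul_mem] at this
  rw [e]
  simpa using this

theorem main {H : Type*} [Group H] [Finite H] {p : ℕ} (hp : p.Prime) {x : H} (hx : orderOf x = p)
    (h2 : ¬ p ^ 2 ∣ Nat.card H) (hO : ∀ L : Subgroup H, L.Normal → ¬ p ∣ Nat.card L → L = ⊥)
    (hn : ¬ (zpowers x).Normal) :
    IsSimpleGroup (normalClosure ({x} : Set H)) ∧ ¬ IsMulCommutative (normalClosure ({x} : Set H)) := by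
  haveI := Fact.mk hp
  set K := normalClosure ({x} : Set H) with hK
  have xK : x ∈ K := subset_normalClosure rfl
  have h2K : ¬ p ^ 2 ∣ Nat.card K := fun h => h2 (h.trans (card_subgroup_dvd_card K))
  have ord : ∀ g : H, orderOf (⟨g * x * g⁻¹, (inferInstance : K.Normal).conj_mem x xK g⟩ : K) = p := fun g => by
    rw [← orderOf_coe, ← hx]
    exact (orderOf_injective (MulAut.conj g).toMonoidHom (MulAut.conj g).injective x)
  have top : ∀ L : Subgroup K, L.Normal → ∀ y ∈ L, orderOf y = p → L = ⊤ := fun L hL y hy oy => by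
    have : K ≤ L.map K.subtype := by
      refine (closure_le _).2 fun a ha => ?_
      obtain ⟨b, hb, hc⟩ := Group.mem_conjugatesOfSet_iff.1 ha
      rw [Set.mem_singleton_iff.1 hb] at hc
      obtain ⟨g, rfl⟩ := isConj_iff.1 hc
      obtain ⟨k, hk⟩ := conj_zp hp h2K (ord g) oy
      have := hL.conj_mem _ (zpowers_le.2 hy hk) k
      exact ⟨_, this, by simp [mul_assoc]⟩
    rw [eq_top_iff]
    intro a _
    obtain ⟨b, hb, e⟩ := this a.2
    rwa [← Subtype.ext e]
  have x1 : (⟨x, xK⟩ : K) ≠ 1 := fun e => by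
    have : x = 1 := congrArg Subtype.val e
    rw [this, orderOf_one] at hx
    exact hp.one_lt.ne hx
  refine ⟨?_, fun hc => hn ?_⟩
  · haveI : Nontrivial K := ⟨_, _, x1⟩
    refine ⟨fun L hL => ?_⟩
    by_cases hd : p ∣ Nat.card L
    · obtain ⟨y, hy⟩ := exists_prime_orderOf_dvd_card' p hd
      exact Or.inr (top L hL y y.2 (by rw [orderOf_coe, hy]))
    · left
      haveI := H44.pPrimeCore_characteristic (p := p) (G := K)
      have h1 : L ≤ pPrimeCore p K := H44.le_pPrimeCore hL ((hp.coprime_iff_not_dvd.2 hd).symm)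
      have h0 := hO ((pPrimeCore p K).map K.subtype) inferInstance (by
        rw [card_map_of_injective K.subtype_injective]
        exact hp.coprime_iff_not_dvd.1 H44.pPrimeCore_coprime.symm)
      rw [map_eq_bot_iff_of_injective _ K.subtype_injective] at h0
      exact le_bot_iff.1 (h0 ▸ h1)
  · have key : ∀ g : H, g * x * g⁻¹ ∈ zpowers x := fun g => by
      obtain ⟨k, n, hk⟩ := conj_zp hp h2K (ord g) (b := ⟨x, xK⟩) (by rw [← orderOf_coe, hx])
      rw [hc.is_comm.comm k⁻¹, mul_assoc, inv_mul_cancel, mul_one] at hk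
      exact ⟨n, by simpa using congrArg Subtype.val hk⟩
    refine ⟨?_⟩
    rintro _ ⟨n, rfl⟩ g
    have := zpow_mem (key g) n
    rwa [conj_zpow] at this

end KS

variable {G : Type*} [Group G] [Finite G]

/-- the normal closure of a Sylow subgroup of prime order is simple when `O_{p'} = 1` -/
theorem ks {p : ℕ} (hp : p.Prime) {M : Subgroup G} {x : G} (hxM : x ∈ M) (hx : orderOf x = p)
    (h2 : ¬ p ^ 2 ∣ Nat.card M)
    (hO : ∀ L : Subgroup G, L ≤ M → M ≤ normalizer (L : Set G) → ¬ p ∣ Nat.card L → L = ⊥)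
    (hn : ¬ M ≤ Ng x) :
    ∃ K : Subgroup G, K ≤ M ∧ M ≤ normalizer (K : Set G) ∧ x ∈ K ∧ IsSimpleGroup K ∧
      ¬ IsMulCommutative K := by
  have nrm : ∀ L : Subgroup M, L.Normal → M ≤ normalizer ((L.map M.subtype : Subgroup G) : Set G) := fun L hL => by
    have := le_normalizer_map (H := L) M.subtype
    rwa [normalizer_eq_top, ← MonoidHom.range_eq_map, range_subtype] at this
  obtain ⟨h1, h3⟩ := KS.main (H := M) hp (x := ⟨x, hxM⟩) (by rw [← orderOf_coe, hx]) h2
    (fun L hL hd => by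
      have := hO (L.map M.subtype) (map_subtype_le L) (nrm L hL)
        (by rwa [card_map_of_injective M.subtype_injective])
      rwa [map_eq_bot_iff_of_injective _ M.subtype_injective] at this)
    (fun hN => hn (by
      have := nrm _ hN
      rwa [MonoidHom.map_zpowers] at this))
  set K := normalClosure ({⟨x, hxM⟩} : Set M)
  let e := K.equivMapOfInjective M.subtype M.subtype_injective
  refine ⟨K.map M.subtype, map_subtype_le K, nrm K inferInstance, ⟨⟨x, hxM⟩, subset_normalClosure rfl, rfl⟩,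
    e.symm.isSimpleGroup, fun hc => h3 ⟨⟨fun a b => e.injective ?_⟩⟩⟩
  rw [map_mul, map_mul, hc.is_comm.comm]

end Cfsg.Agent.MX
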