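import Cfsg.Agent.MX.Defs
import Cfsg.Agent.S0243
import Cfsg.Agent.H9.SLBasic
import Cfsg.Agent.H36.Simple
import Cfsg.Agent.SR3.Basic

set_option autoImplicit false
set_option linter.unusedSectionVars false

namespace Cfsg.Agent.MX

open Cfsg Subgroup
open SR3 (nm ce cj)
open scoped commutatorElement

variable {G : Type*} [Group G] [Finite G]

namespace NA

theorem card_SL : Nat.card (Matrix.SpecialLinearGroup (Fin 5) (ZMod 2)) = 9999360 := by
  have h := H9.card_sl_fin (F := ZMod 2) 5 (by norm_num)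
  generalize Nat.card (Matrix.SpecialLinearGroup (Fin 5) (ZMod 2)) = c at h
  simp only [ZMod.card, Fin.prod_univ_five] at h
  norm_num at h
  exact h

theorem simple_SL : IsSimpleGroup (Matrix.SpecialLinearGroup (Fin 5) (ZMod 2)) := by
  have h := H9.psl_isSimpleGroup (ι := Fin 5) (F := ZMod 2) (by simp)
  have hc : center (Matrix.SpecialLinearGroup (Fin 5) (ZMod 2)) = ⊥ := by
    rw [eq_bot_iff]
    intro A hA
    obtain ⟨r, h1, h2⟩ := Matrix.SpecialLinearGroup.mem_center_iff.1 hA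
    have h3 : r = 1 := by
      revert h1
      generalize r = r
      revert r
      decide
    rw [h3, map_one] at h2
    exact Subtype.ext h2.symm
  exact ((QuotientGroup.quotientMulEquivOfEq hc).trans QuotientGroup.quotientBot).symm.isSimpleGroup

theorem ric (H K : Subgroup G) : H.relIndex K * Nat.card ↥(H ⊓ K) = Nat.card K := by
  rw [← (H.subgroupOf K).index_mul_card, relIndex,
    ← Nat.card_congr (subgroupOfEquivOfLe (inf_le_right : H ⊓ K ≤ K)).toEquiv, inf_subgroupOf_right]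

/-- a subgroup of small index in the normaliser contains `A` -/
theorem le_of_idx {A B Y : Subgroup G} (hA : IsElementaryAbelian 2 A) (hc : Nat.card A = 2 ^ 10)
    (hB : B ≤ nm A) (h1 : B ⊓ A = ⊥) (h2 : B ⊔ A = nm A) [IsSimpleGroup B] (cB : Nat.card B = 9999360)
    (hirr : ∀ W : Subgroup G, W ≤ A → nm A ≤ nm W → W = ⊥ ∨ W = A)
    (hi : Nat.card (nm A) ≤ 33 * Nat.card ↥(Y ⊓ nm A)) : A ≤ Y := by
  by_contra hn
  obtain ⟨D, hD⟩ : ∃ D, D = Y ⊓ nm A := ⟨_, rfl⟩
  rw [← hD] at hi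
  have DX : D ≤ nm A := hD ▸ inf_le_right
  have WX : D ⊔ A ≤ nm A := sup_le DX le_normalizer
  have j1 : D.relIndex A ≠ 1 := fun e => hn ((relIndex_eq_one.1 e).trans (hD ▸ inf_le_left))
  have e1 := ric D A
  have e2 := SR3.card_sup_mul DX
  have c0 : 0 < Nat.card ↥(D ⊓ A) := Nat.card_pos
  have d0 : 0 < Nat.card D := Nat.card_pos
  have e3 : Nat.card ↥(D ⊔ A) = Nat.card D * D.relIndex A :=
    Nat.eq_of_mul_eq_mul_right c0 (by rw [e2, ← e1]; ring)
  have j0 : D.relIndex A ≠ 0 := fun e => by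
    rw [e, zero_mul, hc] at e1; norm_num at e1
  by_cases hW : B ≤ D ⊔ A
  · have eW : D ⊔ A = nm A := le_antisymm WX (h2 ▸ sup_le hW le_sup_right)
    have k : nm A ≤ nm (D ⊓ A) := by
      rw [← eW]
      refine sup_le (fun g hg => SR3.nm_inf (le_normalizer hg) (DX hg)) (SR3.le_nm_of_conj fun g hg x hx => ?_)
      have : g * x = x * g := congrArg Subtype.val (hA.1.is_comm.comm (⟨g, hg⟩ : A) ⟨x, hx.2⟩)
      rw [this, mul_inv_cancel_right]; exact hx
    rcases hirr _ inf_le_right k with e | e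
    · rw [e, card_bot, mul_one, hc] at e1
      rw [eW, e1] at e3
      omega
    · exact j1 (relIndex_eq_one.2 (e ▸ inf_le_left))
  · have k1 : (D ⊔ A).subgroupOf B ≠ ⊤ := fun e => hW (subgroupOf_eq_top.1 e)
    have k2 := H36.card_dvd_factorial_index k1
    have k3 : 31 ≤ (D ⊔ A).relIndex B :=
      (Nat.Prime.dvd_factorial (by norm_num)).1 (Dvd.dvd.trans (by rw [cB]; norm_num) k2)
    have e4 := ric (D ⊔ A) B
    have e5 : D ⊔ A = (B ⊓ (D ⊔ A)) ⊔ A := by
      rw [← SR3.sup_inf_mod hB le_sup_right, h2, inf_eq_right.2 WX]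
    have e6 := SR3.card_sup_mul (X := B ⊓ (D ⊔ A)) (Y := A) (inf_le_left.trans hB)
    have e7 : B ⊓ (D ⊔ A) ⊓ A = ⊥ := eq_bot_iff.2 (h1 ▸ inf_le_inf_right A inf_le_left)
    rw [← e5, e7, card_bot, mul_one, inf_comm B] at e6
    have e8 := SR3.card_sup_mul hB
    rw [h2, h1, card_bot, mul_one, ← e4, mul_assoc, ← e6, e3] at e8
    have k4 : 2 ≤ D.relIndex A := by omega
    have : 31 * (Nat.card D * 2) ≤ (D ⊔ A).relIndex B * (Nat.card D * D.relIndex A) := by gcongr
    omega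

end NA

theorem card_NA {A B : Subgroup G} (hc : Nat.card A = 2 ^ 10)
    (hB : B ≤ normalizer (A : Set G)) (h1 : B ⊓ A = ⊥) (h2 : B ⊔ A = normalizer (A : Set G))
    (e : Nonempty (↥B ≃* Matrix.SpecialLinearGroup (Fin 5) (ZMod 2))) :
    Nat.card (normalizer (A : Set G)) = 10239344640 := by
  obtain ⟨e⟩ := e
  have k := SR3.card_sup_mul hB
  rw [h2, h1, card_bot, mul_one, Nat.card_congr e.toEquiv, NA.card_SL, hc] at k
  exact k.trans (by norm_num)

theorem na_small {A B : Subgroup G} (hA : IsElementaryAbelian 2 A) (hc : Nat.card A = 2 ^ 10)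
    (hs : centralizer (A : Set G) = A)
    (hB : B ≤ normalizer (A : Set G)) (h1 : B ⊓ A = ⊥) (h2 : B ⊔ A = normalizer (A : Set G))
    (e : Nonempty (↥B ≃* Matrix.SpecialLinearGroup (Fin 5) (ZMod 2)))
    (hirr : ∀ W : Subgroup G, W ≤ A → normalizer (A : Set G) ≤ normalizer (W : Set G) →
      W = ⊥ ∨ W = A)
    {M : Subgroup G} (hM : normalizer (A : Set G) < M)
    (hi : Nat.card M ≤ 33 * Nat.card (normalizer (A : Set G))) : False := by
  obtain ⟨e⟩ := e
  have := NA.simple_SL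
  have : IsSimpleGroup B := e.isSimpleGroup
  have cB : Nat.card B = 9999360 := (Nat.card_congr e.toEquiv).trans NA.card_SL
  have hA' : ∀ m ∈ M, A ≤ cj m (nm A) := fun m hm => by
    refine NA.le_of_idx hA hc hB h1 h2 cB hirr ?_
    have l : cj m (nm A) ≤ M := (SR3.cj_mono m hM.le).trans (SR3.cj_eq (le_normalizer hm)).le
    have e1 := NA.ric (cj m (nm A)) M
    rw [inf_eq_left.2 l, SR3.card_cj] at e1
    have x0 : 0 < Nat.card (nm A) := Nat.card_pos
    have k1 : (cj m (nm A)).relIndex M ≤ 33 := Nat.le_of_mul_le_mul_right (e1 ▸ hi) x0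
    have k2 : (cj m (nm A)).relIndex (nm A) ≤ (cj m (nm A)).relIndex M :=
      relIndex_le_of_le_right hM.le fun e0 => by
        rw [e0, zero_mul] at e1; exact (Nat.card_pos (α := M)).ne e1
    rw [← NA.ric (cj m (nm A)) (nm A)]
    exact Nat.mul_le_mul_right _ (k2.trans k1)
  obtain ⟨N, hN⟩ : ∃ N : Subgroup G, ∀ g, g ∈ N ↔ ∀ m ∈ M, m⁻¹ * g * m ∈ nm A :=
    ⟨⨅ m ∈ M, cj m (nm A), fun g => by simp only [mem_iInf, SR3.mem_cj]⟩
  have AN : A ≤ N := fun a ha => (hN a).2 fun m hm => SR3.mem_cj.1 (hA' m hm ha)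
  have NX : N ≤ nm A := fun g hg => by simpa using (hN g).1 hg 1 (one_mem _)
  have MN : M ≤ nm N := SR3.le_nm_of_conj fun m' hm' g hg => (hN _).2 fun m hm => by
    have k := (hN g).1 hg (m'⁻¹ * m) (mul_mem (inv_mem hm') hm)
    have e : m⁻¹ * (m' * g * m'⁻¹) * m = (m'⁻¹ * m)⁻¹ * g * (m'⁻¹ * m) := by group
    rwa [e]
  refine hM.not_ge ?_
  rcases (normal_subgroupOf_of_le_normalizer (hB.trans (hM.le.trans MN))).eq_bot_or_eq_top with k | k
  · have k1 : B ⊓ N = ⊥ := by rw [inf_comm]; exact disjoint_iff.1 (subgroupOf_eq_bot.1 k)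
    have k2 := SR3.sup_inf_mod hB AN
    rw [h2, k1, bot_sup_eq, inf_eq_right.2 NX] at k2
    exact k2 ▸ MN
  · have k1 : N = nm A := le_antisymm NX (h2.ge.trans (sup_le (subgroupOf_eq_top.1 k) AN))
    rw [k1] at MN
    intro m hm
    have k2 : nm (cj m A) = nm A := by rw [← SR3.cj_nm, SR3.cj_eq (MN hm)]
    rcases hirr (A ⊓ cj m A) inf_le_left (fun g hg => SR3.nm_inf hg (k2 ▸ hg)) with k3 | k3
    · refine SR3.mem_nm_of_cj_le fun x hx => ?_
      rw [← hs]
      refine SR3.mem_ce.2 fun a ha => ?_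
      have m1 : ⁅a, x⁆ ∈ A ⊓ cj m A :=
        ⟨SR3.comm_symm (SR3.comm_mem_of_nm (k2 ▸ le_normalizer hx) ha),
          SR3.comm_mem_of_nm (k2.symm ▸ le_normalizer ha) hx⟩
      rw [k3, mem_bot] at m1
      exact (commutatorElement_eq_one_iff_mul_comm.1 m1)
    · exact SR3.mem_nm_iff.2 (eq_of_le_of_card_ge (k3.ge.trans inf_le_right) (SR3.card_cj m A).le).symm

end Cfsg.Agent.MX
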