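import Cfsg.Agent.MX.Num

/-! Project MX: the numerical facts on the simple normal subgroup `K`. -/

set_option autoImplicit false

namespace Cfsg.Agent.MX

open Cfsg Subgroup

/-- admissible degree `d` for a self-centralising prime `q` with inertial index `e` -/
def good (k q e d : ℕ) : Bool :=
  (Nat.beq (d % q) 0 || Nat.beq (d % q) 1 || Nat.beq (d % q + 1) q || Nat.beq (d % q) e ||
    Nat.beq (d % q + e) q) &&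
  (Nat.beq (2 * k) (q * (q * q - 1)) || Nat.ble q (d + 2)) &&
  (Nat.beq ((q - 1) / e % 2) 0 || !Nat.beq (d + 1) q)

/-- counts for commuting elements of orders 5 and 7 -/
def interP (c7 c5 e5 : ℕ) : Prop :=
  (5 ∣ c7 ↔ 7 ∣ c5) ∧ (5 ∣ c7 → ∃ a a₂ a₃, 35 ∣ a₂ ∧ 35 ∣ a₃ ∧ a₂ ∣ a ∧ a₃ ∣ a ∧
    cnt (5 * c5 * e5) 7 a = true ∧ cnt (21 * c7) 5 a = true ∧ cnt (5 * c5) 7 a₂ = true ∧
    cnt (7 * c7) 5 a₃ = true)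

def IsoF (K : Type*) [Group K] : Prop :=
  ∀ x ∈ isoL, x.1 ∣ Nat.card K → ∃ e, e ∣ x.2 ∧ 2 ≤ e ∧
    cnt (Nat.card K) x.1 (x.1 * e) = true ∧
    (∀ d, IsDeg K d → good (Nat.card K) x.1 e d = true) ∧ DegEq K x.1 e x.1

def F11 (K : Type*) [Group K] (idx c e : ℕ) : Prop :=
  c ∈ [1, 2, 3, 4, 6, 8, 24] ∧ e ∈ [2, 5, 10] ∧ cnt (Nat.card K) 11 (11 * c * e) = true ∧
    c * e * idx ∣ 240 ∧ DegEq K 11 e (11 * c)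

def F7 (K : Type*) [Group K] (idx c7 : ℕ) (a b y : ℤ) : Prop :=
  c7 ∣ 120 ∧ cnt (Nat.card K) 7 (21 * c7) = true ∧ c7 * idx ∣ 120 ∧ 1 + a + b = y ∧
    a ≡ 1 [ZMOD 7] ∧ b ≡ 1 [ZMOD 7] ∧ IsDeg K a.natAbs ∧ IsDeg K b.natAbs ∧ IsDeg K y.natAbs ∧
    a.natAbs * (7 * c7) ∣ Nat.card K ∧ b.natAbs * (7 * c7) ∣ Nat.card K ∧
    y.natAbs * (7 * c7) ∣ Nat.card K ∧ IsSquare (-(a * b * y))

def F5 (K : Type*) [Group K] (c5 e5 : ℕ) : Prop :=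
  c5 ∣ 1344 ∧ e5 ∈ [2, 4] ∧ cnt (Nat.card K) 5 (5 * c5 * e5) = true ∧ DegEq K 5 e5 (5 * c5)

def RatP (a b : ℤ) (C : ℕ) : Prop :=
  ∃ α β : ℤ, α ≡ a [ZMOD 11] ∧ β ≡ b [ZMOD 11] ∧ 1 + α ^ 2 + β ^ 2 + 2 * (1 + α + β) ^ 2 ≤ (C : ℤ)

structure NF (K : Type*) [Group K] (idx c11 e11 c7 c5 e5 : ℕ) (a b y : ℤ) : Prop where
  deg : ∀ d, IsDeg K d → d ∣ Nat.card K ∧ 2 ≤ d ∧ d * d < Nat.card K
  iso : IsoF K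
  h11 : 11 ∣ Nat.card K → ¬ 121 ∣ Nat.card K → F11 K idx c11 e11
  h7 : 7 ∣ Nat.card K → F7 K idx c7 a b y
  h5 : 5 ∣ Nat.card K → F5 K c5 e5
  h57 : 5 ∣ Nat.card K → 7 ∣ Nat.card K → interP c7 c5 e5
  h711 : 7 ∣ Nat.card K → 11 ∣ Nat.card K → ¬ 121 ∣ Nat.card K → a.natAbs ≠ b.natAbs →
    RatP a b (11 * c11)

end Cfsg.Agent.MX
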