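import Cfsg.Agent.MX.Defs
import Cfsg.Agent.MX.NF
import Cfsg.Agent.MX.Loc
import Cfsg.Agent.MX.DegEq
import Cfsg.Agent.MX.TIc
import Cfsg.Agent.MX.C132
import Cfsg.Agent.MX.TI

set_option autoImplicit false

namespace Cfsg.Agent.MX

open Cfsg Subgroup

variable {G : Type*} [Group G] [Finite G]

theorem NF11.c24 {c : ℕ} (h : c ∣ 24) (h' : c ≠ 12) : c ∈ [1, 2, 3, 4, 6, 8, 24] := by
  have := Nat.le_of_dvd (by norm_num) h
  interval_cases c <;> simp_all

theorem NF11.e10 {e : ℕ} (h : e ∣ 10) (h' : e ≠ 1) : e ∈ [2, 5, 10] := by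
  have := Nat.le_of_dvd (by norm_num) h
  interval_cases e <;> simp_all

theorem JF.nf_11 (J : JF G) {K M : Subgroup G} [IsSimpleGroup K] (hK : ¬ IsMulCommutative K)
    (hKM : K ≤ M) (hn : M ≤ normalizer (K : Set G)) {idx : ℕ} (hi : Nat.card M = idx * Nat.card K)
    (hi' : ¬ 11 ∣ idx) (h : ¬ 121 ∣ Nat.card K) {x : K} (hx : orderOf x = 11) :
    ∃ c e, Nat.card (Cg x) = 11 * c ∧ F11 K idx c e := by
  have hp : Nat.Prime 11 := by norm_num
  have h2 : ¬ 11 ^ 2 ∣ Nat.card K := h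
  have hx' : orderOf (x : G) = 11 := by rw [Subgroup.orderOf_coe, hx]
  obtain ⟨e, n, e1, e2, e3, e4, ⟨c, hc⟩, e6, -⟩ := loc hp K x hx h2
  have e0 : e ≠ 1 := fun e0 => loc_simple hK hp hx h2 (by rw [e1, e0, one_mul])
  have c11 : ¬ 11 ∣ c := fun ⟨d, hd⟩ => h ((Dvd.intro d (by rw [hc, hd]; ring)).trans (card_subgroup_dvd_card (Cg x)))
  have cop : Nat.Coprime c 121 := ((Nat.Prime.coprime_iff_not_dvd hp).2 c11).symm.pow_right 2
  have c24 : c ∣ 24 := by
    rw [hc] at e6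
    rcases J.c11 x hx' with k | k
    · obtain ⟨g, hg⟩ := isConj_iff.1 k
      rw [← hg, TI.card_C, J.cx] at e6
      exact cop.dvd_of_dvd_mul_left (Nat.dvd_of_mul_dvd_mul_left (k := 11) (by norm_num) e6)
    · rw [k] at e6
      have : c ∣ 121 * 2 := (Dvd.intro_left 11 rfl).trans e6
      exact (cop.dvd_of_dvd_mul_left this).trans (by norm_num)
  have c12 : c ≠ 12 := fun k => J.c132 hx' (D := Cg (x : G) ⊓ K) inf_le_left (by rw [← card_Cg_coe, hc, k])
  have he := NF11.e10 e4 e0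
  have hM : ¬ 11 ^ 2 ∣ Nat.card M := fun k => by
    rw [hi] at k
    exact h2 ((((Nat.Prime.coprime_iff_not_dvd hp).2 hi').pow_left 2).dvd_of_dvd_mul_left k)
  have f1 := loc_frattini hp hKM hn x hx h2
  rw [hi, ← mul_assoc] at f1
  have f2 := Nat.eq_of_mul_eq_mul_right Nat.card_pos f1
  have f3 := J.ti_elt (hKM x.2) hx' hM
  rw [← f2, e1, hc] at f3
  refine ⟨c, e, hc, NF11.c24 c24 c12, he, ?_, ?_, hc ▸ degEq hp (by norm_num) hx h2 e1 (by
    simp only [List.mem_cons, List.not_mem_nil, or_false] at he; omega)⟩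
  · have e7 : Nat.card K = n * (11 * c * e) := by rw [e2, hc]; ring
    exact cnt_of (Nat.pos_of_mul_pos_left (e7 ▸ Nat.card_pos)) e7 e3
  · refine Nat.dvd_of_mul_dvd_mul_left (k := 11) (by norm_num) ?_
    rwa [show 11 * (c * e * idx) = e * (11 * c) * idx by ring]

end Cfsg.Agent.MX
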