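import Cfsg.Agent.MX.Defs
import Cfsg.Agent.H9.SLBasic

set_option autoImplicit false

namespace Cfsg.Agent.MX

open Cfsg Subgroup

variable {G : Type*} [Group G] [Finite G]

theorem NL.card_sl : Nat.card (Matrix.SpecialLinearGroup (Fin 3) (ZMod 2)) = 168 := by
  have h2 := H9.card_sl_fin (F := ZMod 2) 3 (by norm_num)
  rw [ZMod.card] at h2
  generalize Nat.card (Matrix.SpecialLinearGroup (Fin 3) (ZMod 2)) = A at *
  norm_num [Fin.prod_univ_succ] at h2
  omega

theorem card_NL {L : Subgroup G} (hc : Nat.card L = 2 ^ 15)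
    (e : Nonempty (↥(normalizer (L : Set G)) ⧸ L.subgroupOf (normalizer (L : Set G)) ≃*
      Equiv.Perm (Fin 5) × Matrix.SpecialLinearGroup (Fin 3) (ZMod 2))) :
    Nat.card (normalizer (L : Set G)) = 660602880 := by
  obtain ⟨e⟩ := e
  rw [card_eq_card_quotient_mul_card_subgroup (L.subgroupOf (normalizer (L : Set G))),
    Nat.card_congr e.toEquiv, Nat.card_congr (subgroupOfEquivOfLe le_normalizer).toEquiv, hc,
    Nat.card_prod, NL.card_sl, Nat.card_perm, Nat.card_fin]
  rfl

end Cfsg.Agent.MX
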