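import Cfsg.Agent.MX.Defs
import Cfsg.Agent.MX.Cop
import Cfsg.Agent.MX.TI

set_option autoImplicit false

namespace Cfsg.Agent.MX

open Cfsg Subgroup

variable {G : Type*} [Group G] [Finite G]

namespace NSo

theorem dvd_card {U X : Type*} [Group U] [MulAction U X] [Finite X] {n : ℕ}
    (h : ∀ x : X, n ∣ (MulAction.stabilizer U x).index) : n ∣ Nat.card X := by
  classical
  have := Fintype.ofFinite (MulAction.orbitRel.Quotient U X)
  rw [Nat.card_congr (MulAction.selfEquivSigmaOrbits U X), Nat.card_sigma]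
  exact Finset.dvd_sum fun ω _ => by
    rw [Nat.card_coe_set_eq, ← MulAction.index_stabilizer]; exact h _

/-- orbits of a group of order `11 ^ 3` -/
theorem orb {U R : Subgroup G} (hU : Nat.card U = 11 ^ 3) (hn : U ≤ normalizer (R : Set G))
    (h : ∀ g ∈ R, g ≠ 1 → ¬ 121 ∣ Nat.card (Cg g)) : Nat.card R % 121 = 1 := by
  let _ : MulAction U {g : R // g ≠ 1} :=
    { smul := fun u g => ⟨⟨u * g.1 * (u : G)⁻¹, (mem_normalizer_iff.1 (hn u.2) _).1 g.1.2⟩, fun e => g.2 (by
        have := congrArg Subtype.val e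
        exact Subtype.ext (by simpa using this))⟩
      one_smul := fun g => Subtype.ext (Subtype.ext (by
        show ((1 : U) : G) * _ * ((1 : U) : G)⁻¹ = _
        simp))
      mul_smul := fun a b g => Subtype.ext (Subtype.ext (by
        show ((a * b : U) : G) * _ * ((a * b : U) : G)⁻¹ = (a : G) * ((b : G) * _ * (b : G)⁻¹) * (a : G)⁻¹
        simp [mul_assoc])) }
  have k : 121 ∣ Nat.card {g : R // g ≠ 1} := dvd_card (U := U) fun g => by
    have h1 := (MulAction.stabilizer U g).card_mul_index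
    have h2 : Nat.card (MulAction.stabilizer U g) ∣ Nat.card (Cg (g.1 : G)) := by
      rw [← card_map_of_injective U.subtype_injective]
      refine card_dvd_of_le ?_
      rintro _ ⟨u, hu, rfl⟩
      have : (u : G) * g.1 * (u : G)⁻¹ = g.1 := congrArg (fun t : {g : R // g ≠ 1} => (t.1 : G)) hu
      exact mem_centralizer_singleton_iff.2 (mul_inv_eq_iff_eq_mul.1 this)
    have h3 := h _ g.1.2 fun e => g.2 (Subtype.ext e)
    rw [hU] at h1
    obtain ⟨j, hj, e⟩ := (Nat.dvd_prime_pow (by norm_num)).1 (Dvd.intro _ h1)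
    rw [e] at h1 h2
    interval_cases j
    · omega
    · omega
    · exact absurd h2 h3
    · exact absurd (Nat.dvd_trans (by norm_num) h2) h3
  have e : Nat.card {g : R // g ≠ 1} + 1 = Nat.card R := by
    classical
    rw [← Nat.card_congr (Equiv.optionSubtypeNe (1 : R)), Finite.card_option]
  omega

end NSo

theorem JF.ns_core (J : JF G) (U : Sylow 11 G) {M : Subgroup G}
    (hU : normalizer ((U : Subgroup G) : Set G) ≤ M) (hM : Nat.card M = 219815608320)
    {L : Subgroup G} (hL : L ≤ M) (hn : M ≤ normalizer (L : Set G)) (h7 : ¬ 7 ∣ Nat.card L) :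
    L = ⊥ := by
  have p11 : Nat.Prime 11 := by norm_num
  have p7 : Nat.Prime 7 := by norm_num
  have : Fact (Nat.Prime 11) := ⟨p11⟩
  have : Fact (Nat.Prime 7) := ⟨p7⟩
  have dv : Nat.card L ∣ 219815608320 := hM ▸ card_dvd_of_le hL
  have L0 : Nat.card L ≠ 0 := Nat.card_pos.ne'
  have h11 : ¬ 11 ∣ Nat.card L := fun h => by
    obtain ⟨y, hy⟩ := exists_prime_orderOf_dvd_card' (G := M) 7 (by rw [hM]; norm_num)
    have hy' : orderOf (y : G) = 7 := by rw [orderOf_coe, hy]
    obtain ⟨R, RL, cR, nR⟩ := cop_grp p7 p11 (U := zpowers (y : G)) (IsPGroup.of_card (n := 1)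
      (by rw [Nat.card_zpowers, hy', pow_one])) (zpowers_le.2 (hn y.2)) h7
    have yR := nR (mem_zpowers _)
    have m := card_modEq_fix p7 hy' yR
    have v0 := p11.factorization_pos_of_dvd L0 h
    generalize (Nat.card L).factorization 11 = v at cR v0
    have c1 : Nat.card ↥(R ⊓ Cg (y : G)) = 1 := Nat.eq_one_of_dvd_coprimes
      (Nat.Coprime.pow_left v (by norm_num : Nat.Coprime 11 840)) (cR ▸ card_dvd_of_le inf_le_left)
      ((J.c7 _ hy').1 ▸ card_dvd_of_le inf_le_right)
    obtain ⟨U', hU'⟩ := (IsPGroup.of_card cR).exists_le_sylow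
    obtain ⟨-, c2, -, c3⟩ := J.syl11 U'
    have d : 11 ^ v ∣ 11 ^ 3 := by rw [← cR]; exact (card_dvd_of_le hU').trans (by rw [c2]; norm_num)
    have v3 := (Nat.pow_dvd_pow_iff_le_right (by norm_num)).1 d
    rw [c1, cR] at m
    interval_cases v
    · exact absurd m (by decide)
    · exact absurd m (by decide)
    · have e : R = U' := eq_of_le_of_card_ge hU' (by rw [c2, cR]; norm_num)
      have := (zpowers_le.2 yR |> card_dvd_of_le)
      rw [e, c3, Nat.card_zpowers, hy'] at this
      norm_num at this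
  by_contra hb
  obtain ⟨r, hr, rL⟩ := Nat.exists_prime_and_dvd (n := Nat.card L) fun e => hb (eq_bot_of_card_eq L e)
  obtain ⟨R, RL, cR, nR⟩ := cop_grp p11 hr U.isPGroup' ((le_normalizer.trans hU).trans hn) h11
  have v0 := hr.factorization_pos_of_dvd L0 rL
  generalize (Nat.card L).factorization r = v at cR v0
  have d : r ^ v ∣ 219815608320 := cR ▸ (card_dvd_of_le RL).trans dv
  have key : (∀ g : G, orderOf g = r → ¬ 121 ∣ Nat.card (Cg g)) → r ^ v % 121 = 1 := fun k => by
    rw [← cR]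
    refine NSo.orb (J.syl11 U).2.1 nR fun g hg g1 h => ?_
    obtain ⟨j, -, e⟩ := (Nat.dvd_prime_pow hr).1 (cR ▸ orderOf_dvd_natCard (⟨g, hg⟩ : R))
    rw [orderOf_mk] at e
    have j0 : j ≠ 0 := fun e' => g1 (orderOf_eq_one_iff.1 (by rw [e, e', pow_zero]))
    refine k _ (orderOf_pow_orderOf_div (orderOf_pos g).ne' (e ▸ dvd_pow_self r j0)) (h.trans (card_dvd_of_le ?_))
    exact fun a ha => mem_centralizer_singleton_iff.2
      (Commute.pow_right (mem_centralizer_singleton_iff.1 ha) _).eq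
  have rd : r ∣ 2 ^ 19 * (3 ^ 2 * (5 * (7 * 11 ^ 3))) := rL.trans dv
  have eq : ∀ {q : ℕ}, q.Prime → ∀ {n}, r ∣ q ^ n → r = q := fun hq _ h =>
    (Nat.prime_dvd_prime_iff_eq hr hq).1 (hr.dvd_of_dvd_pow h)
  have vle : ∀ n, ¬ r ^ (n + 1) ∣ 219815608320 → v ≤ n := fun n h => by
    by_contra k
    exact h ((pow_dvd_pow r (by omega)).trans d)
  rcases (hr.dvd_mul).1 rd with h | h
  · obtain rfl := eq Nat.prime_two h
    have := key fun g hg => by rcases J.c2 g hg with e | e <;> rw [e] <;> norm_num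
    have := vle 19 (by norm_num)
    interval_cases v <;> omega
  rcases (hr.dvd_mul).1 h with h | h
  · obtain rfl := eq Nat.prime_three h
    have := key fun g hg => by rw [J.c3 g hg]; norm_num
    have := vle 2 (by norm_num)
    interval_cases v <;> omega
  rcases (hr.dvd_mul).1 h with h | h
  · obtain rfl := (Nat.prime_dvd_prime_iff_eq hr Nat.prime_five).1 h
    have := key fun g hg => by rw [(J.c5 g hg).1]; norm_num
    have := vle 1 (by norm_num)
    interval_cases v; omega
  rcases (hr.dvd_mul).1 h with h | h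
  · exact h7 ((Nat.prime_dvd_prime_iff_eq hr p7).1 h ▸ rL)
  · exact h11 (eq p11 h ▸ rL)

end Cfsg.Agent.MX
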