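import Cfsg.Agent.MX.Defs

/-! Project MX: the numerical checker and its soundness. -/

set_option autoImplicit false

namespace Cfsg.Agent.MX

open Cfsg Subgroup

/-- forces the evaluation of a number -/
def frc {α : Type} (n : ℕ) (f : ℕ → α) : α := Nat.casesOn n (f 0) (fun m => f (Nat.succ m))

theorem frc_eq {α : Type} (n : ℕ) (f : ℕ → α) : frc n f = f n := by cases n <;> rfl

def frcL {α : Type} : List ℕ → List ℕ → (List ℕ → α) → α
  | [], acc, f => f acc
  | a :: t, acc, f => frc a fun a' => frcL t (a' :: acc) f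

theorem frcL_eq {α : Type} (l acc : List ℕ) (f : List ℕ → α) :
    frcL l acc f = f (l.reverse ++ acc) := by
  induction l generalizing acc with
  | nil => rfl
  | cons a t ih => simp [frcL, frc_eq, ih]

def fl {α : Type} (l : List ℕ) (f : List ℕ → α) : α := frcL l [] f

theorem fl_eq {α : Type} (l : List ℕ) (f : List ℕ → α) : fl l f = f l.reverse := by
  simp [fl, frcL_eq]

def dvB (a b : ℕ) : Bool := Nat.beq (b % a) 0

theorem dvB_iff {a b : ℕ} : dvB a b = true ↔ a ∣ b := by
  simp [dvB, Nat.dvd_iff_mod_eq_zero]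

def memB (x : ℕ) (l : List ℕ) : Bool := l.any (Nat.beq x)

theorem memB_iff {x : ℕ} {l : List ℕ} : memB x l = true ↔ x ∈ l := by
  simp [memB]

def cnt (k q c : ℕ) : Bool := dvB c k && Nat.beq (k / c % q) 1

theorem cnt_of {k q c n : ℕ} (hc : 0 < c) (h : k = n * c) (hn : n % q = 1) : cnt k q c = true := by
  subst h
  simp [cnt, dvB_iff, Nat.mul_div_cancel _ hc, hn]

theorem cnt_iff {k q c : ℕ} : cnt k q c = true ↔ c ∣ k ∧ k / c % q = 1 := by
  simp [cnt, dvB_iff]

/-! divisors -/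

def pv : List (ℕ × ℕ) → ℕ
  | [] => 1
  | x :: t => x.1 ^ x.2 * pv t

def dv : List (ℕ × ℕ) → List ℕ
  | [] => [1]
  | x :: t => fl (dv t) fun l => l.flatMap fun d => (List.range (x.2 + 1)).map fun i => d * x.1 ^ i

theorem mem_dv {l : List (ℕ × ℕ)} (hl : ∀ x ∈ l, x.1.Prime) {d : ℕ} (h : d ∣ pv l) : d ∈ dv l := by
  induction l generalizing d with
  | nil => simpa [pv, dv] using h
  | cons x t ih =>
    obtain ⟨a, b, ha, hb, rfl⟩ := (Nat.dvd_mul).1 h
    obtain ⟨i, hi, rfl⟩ := (Nat.dvd_prime_pow (hl x (by simp))).1 ha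
    simp only [dv, fl_eq, List.mem_flatMap, List.mem_map, List.mem_range, List.mem_reverse]
    exact ⟨b, ih (fun y hy => hl y (by simp [hy])) hb, i, by omega, by ring⟩

def allF : List (ℕ × ℕ) → List (ℕ × ℕ) → ℕ → (List (ℕ × ℕ) → ℕ → Bool) → Bool
  | [], acc, n, f => f acc n
  | x :: t, acc, n, f => (List.range (x.2 + 1)).all fun i =>
      frc i fun i => frc (n * x.1 ^ i) fun m => allF t ((x.1, i) :: acc) m f

theorem allF_sound {l acc : List (ℕ × ℕ)} {n : ℕ} {f : List (ℕ × ℕ) → ℕ → Bool}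
    (h : allF l acc n f = true) (hl : ∀ x ∈ l, x.1.Prime) (ha : ∀ x ∈ acc, x.1.Prime)
    (hn : pv acc = n) {d : ℕ} (hd : d ∣ pv l) :
    ∃ acc', (∀ x ∈ acc', x.1.Prime) ∧ pv acc' = n * d ∧ f acc' (n * d) = true := by
  induction l generalizing acc n d with
  | nil =>
    have : d = 1 := by simpa [pv] using hd
    subst this
    exact ⟨acc, ha, by simp [hn], by simpa [allF] using h⟩
  | cons x t ih =>
    obtain ⟨a, b, h1, hb, rfl⟩ := (Nat.dvd_mul).1 hd
    obtain ⟨i, hi, rfl⟩ := (Nat.dvd_prime_pow (hl x (by simp))).1 h1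
    simp only [allF, frc_eq, List.all_eq_true, List.mem_range] at h
    have := ih (h i (by omega)) (fun y hy => hl y (by simp [hy]))
      (fun y hy => by
        rcases List.mem_cons.1 hy with rfl | hy
        · exact hl x (by simp)
        · exact ha y hy) (by simp [pv, hn, mul_comm]) hb
    simpa [mul_assoc] using this

/-! degree equations modulo `m` -/

def rho (m : ℕ) (a : ℤ) : ℕ := (a % m).toNat

theorem rho_cast {m : ℕ} (hm : 0 < m) (a : ℤ) : (rho m a : ℤ) = a % m :=
  Int.toNat_of_nonneg (Int.emod_nonneg _ (by omega))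

theorem rho_lt {m : ℕ} (hm : 0 < m) (a : ℤ) : rho m a < m := by
  have := rho_cast hm a
  have := Int.emod_lt_of_pos a (show (0 : ℤ) < m by omega)
  omega

theorem rho_add {m : ℕ} (hm : 0 < m) (a b : ℤ) : rho m (a + b) = (rho m a + rho m b) % m := by
  apply Int.ofNat_inj.1
  push_cast
  rw [rho_cast hm, rho_cast hm, rho_cast hm, ← Int.add_emod]

theorem rho_nat {m : ℕ} (hm : 0 < m) (d : ℕ) : rho m d = d % m := by
  apply Int.ofNat_inj.1
  rw [rho_cast hm]; push_cast; rfl

theorem rho_neg {m : ℕ} (hm : 0 < m) (d : ℕ) : rho m (-(d : ℤ)) = (m - d % m) % m := by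
  apply Int.ofNat_inj.1
  have : d % m ≤ m := (Nat.mod_lt _ hm).le
  rw [rho_cast hm]; push_cast [this]
  rw [Int.sub_emod, Int.emod_self, Int.emod_emod_of_dvd _ dvd_rfl, zero_sub, Int.neg_emod_eq_sub_emod,
    Int.neg_emod_eq_sub_emod, Int.sub_emod (m : ℤ) (d % m), Int.emod_emod_of_dvd _ dvd_rfl,
    ← Int.sub_emod]

/-- residues mod `m` of the signed numbers `± d`, `d ∈ D`, that are `r` mod `p` -/
def sres (D : List ℕ) (p r m : ℕ) : List ℕ :=
  (List.range m).filter fun s => D.any fun d =>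
    (Nat.beq (d % p) r && Nat.beq (d % m) s) || (Nat.beq ((d + r) % p) 0 && Nat.beq ((m - d % m) % m) s)

theorem mem_sres {D : List ℕ} {p r m : ℕ} (hm : 0 < m) (hr : r < p) {a : ℤ} (hD : a.natAbs ∈ D)
    (h : a ≡ r [ZMOD p]) : rho m a ∈ sres D p r m := by
  simp only [sres, List.mem_filter, List.mem_range, List.any_eq_true, Bool.or_eq_true,
    Bool.and_eq_true, Nat.beq_eq]
  refine ⟨rho_lt hm a, a.natAbs, hD, ?_⟩
  rcases Int.natAbs_eq a with e | e
  · left
    refine ⟨?_, by rw [← rho_nat hm, ← e]⟩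
    rw [e] at h
    have := Int.natCast_modEq_iff.1 h
    rwa [Nat.ModEq, Nat.mod_eq_of_lt hr] at this
  · right
    refine ⟨?_, by rw [← rho_neg hm, ← e]⟩
    rw [e] at h
    have h2 : (p : ℤ) ∣ ((a.natAbs + r : ℕ) : ℤ) := by
      have := h.dvd
      push_cast
      simpa [add_comm] using this
    exact Nat.dvd_iff_mod_eq_zero.1 (Int.natCast_dvd_natCast.1 h2)

def stepS (xs : List ℕ) (m : ℕ) (S : List ℕ) : List ℕ :=
  (List.range m).filter fun r => S.any fun s => xs.any fun x => Nat.beq ((s + x) % m) r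

def iterS (xs : List ℕ) (m : ℕ) : ℕ → List ℕ → (List ℕ → Bool) → Bool
  | 0, S, f => f S
  | n + 1, S, f => fl (stepS xs m S) fun S' => iterS xs m n S' f

theorem iterS_sound {xs : List ℕ} {m : ℕ} (hm : 0 < m) {f : List ℕ → Bool} (l : List ℤ)
    (hl : ∀ a ∈ l, rho m a ∈ xs) {S : List ℕ} {s : ℤ} (hs : rho m s ∈ S)
    (h : iterS xs m l.length S f = true) : ∃ S', f S' = true ∧ rho m (s + l.sum) ∈ S' := by
  induction l generalizing S s with
  | nil => exact ⟨S, h, by simpa using hs⟩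
  | cons a t ih =>
    simp only [List.length_cons, iterS, fl_eq] at h
    have := ih (fun b hb => hl b (by simp [hb])) (s := s + a) (by
      simp only [List.mem_reverse, stepS, List.mem_filter, List.mem_range, List.any_eq_true,
        Nat.beq_eq]
      exact ⟨rho_lt hm _, _, hs, _, hl a (by simp), (rho_add hm _ _).symm⟩) h
    simpa [add_assoc] using this

def degKill (k : ℕ) (D : List ℕ) (p e c m : ℕ) : Bool :=
  Nat.blt 0 m && Nat.blt 1 p && Nat.blt e p &&
  fl (D.filter fun d => dvB (d * c) k) fun Dc =>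
    fl (sres Dc p 1 m) fun xs => fl (sres Dc p e m) fun ys =>
      iterS xs m (e - 1) [1 % m] fun S => S.all fun s => !memB s ys

variable {K : Type*} [Group K]

theorem degKill_sound {D : List ℕ} {p e c m : ℕ} (hD : ∀ d, IsDeg K d → d ∈ D)
    (h : DegEq K p e c) (hk : degKill (Nat.card K) D p e c m = true) : False := by
  obtain ⟨l, y, h1, h2, h3, h4, h5, h6⟩ := h
  simp only [degKill, Bool.and_eq_true, Nat.blt_eq, fl_eq] at hk
  obtain ⟨⟨⟨hm, hp⟩, he⟩, hk⟩ := hk
  have hl : e - 1 = l.length := by omega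
  rw [hl] at hk
  obtain ⟨S', hS, hs⟩ := iterS_sound hm l (fun a ha => by
    rw [List.mem_reverse]
    refine mem_sres hm hp ?_ (by simpa using (h3 a ha).2.1)
    simp only [List.mem_reverse, List.mem_filter, dvB_iff]
    exact ⟨hD _ (h3 a ha).1, (h3 a ha).2.2⟩) (s := 1)
    (by have := rho_nat hm 1; simp only [Nat.cast_one] at this; simp [this]) hk
  rw [h2] at hs
  have := List.all_eq_true.1 hS _ hs
  simp only [Bool.not_eq_true', ← Bool.not_eq_true, memB_iff, List.mem_reverse] at this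
  apply this
  refine mem_sres hm he ?_ h5
  simp only [List.mem_reverse, List.mem_filter, dvB_iff]
  exact ⟨hD _ h4, h6⟩

end Cfsg.Agent.MX
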