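import Cfsg.Agent.MX.Defs
import Cfsg.Agent.H5.Central

set_option autoImplicit false

namespace Cfsg.Agent.MX

open Cfsg Subgroup

variable {K : Type*} [Group K] [Finite K]

omit [Finite K] in
theorem Om.deg (χ : IrrCharacter K) :
    (χ : K → ℂ) 1 = charDegree (χ : K → ℂ) ∧ charDegree (χ : K → ℂ) ≠ 0 := by
  obtain ⟨n, hn, e⟩ := H5.exists_pos_nat_degree χ.2
  simpa [charDegree, e] using hn.ne'

/-- central characters are algebraic integers -/
theorem om_dvd (S : Finset (IrrCharacter K)) (d : ℕ)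
    (hd : ∀ χ ∈ S, charDegree (χ : K → ℂ) = d) (x : K) (s : ℤ) (hs : s = 1 ∨ s = -1)
    (h : ∑ χ ∈ S, (χ : K → ℂ) x = s) : d * Nat.card (Cg x) ∣ Nat.card K := by
  obtain ⟨ψ, hψ⟩ : S.Nonempty := Finset.nonempty_iff_ne_empty.2 (by
    rintro rfl
    rcases hs with rfl | rfl <;> simp at h)
  have i : IsIntegral ℤ (∑ χ ∈ S, ((Cg x).index : ℂ) * (χ : K → ℂ) x / d) := IsIntegral.sum _ fun χ hχ => by
    simpa only [(Om.deg χ).1, hd χ hχ] using H5.isIntegral_centralChar χ.2 x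
  rw [← Finset.sum_div, ← Finset.mul_sum, h] at i
  rw [← (Cg x).index_mul_card]
  refine Nat.mul_dvd_mul_right (H5.dvd_of_isIntegral_div (hd ψ hψ ▸ (Om.deg ψ).2) ?_) _
  rcases hs with rfl | rfl
  · simpa using i
  · simpa [neg_div] using i.neg

namespace Tri

theorem deg_eq (T : Tri K) : 1 + T.a + T.b = T.y := by
  have := T.reg 1 (by simp)
  rw [(Om.deg _).1, (Om.deg _).1, (Om.deg _).1] at this
  rw [a, b, y]
  exact_mod_cast this.symm

theorem isDeg (T : Tri K) : IsDeg K T.a.natAbs ∧ IsDeg K T.b.natAbs ∧ IsDeg K T.y.natAbs := by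
  refine ⟨⟨_, T.ne₂, T.natAbs_a.symm⟩, ⟨_, T.ne₃, T.natAbs_b.symm⟩, _, fun e => ?_, T.natAbs_y.symm⟩
  have := T.modθ
  rw [e] at this
  rcases T.hs with h | h <;> simp [h, charDegree] at this <;> exact absurd this (by decide)

theorem f4 (T : Tri K) {x : K} (hx : orderOf x = 7) :
    T.a.natAbs * Nat.card (Cg x) ∣ Nat.card K ∧ T.b.natAbs * Nat.card (Cg x) ∣ Nat.card K ∧
      T.y.natAbs * Nat.card (Cg x) ∣ Nat.card K := by
  classical
  refine ⟨om_dvd {T.χ₂} _ (by simp [T.natAbs_a]) x _ T.hs₂ (by simpa using T.sing₂ x hx.symm.dvd),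
    om_dvd {T.χ₃} _ (by simp [T.natAbs_b]) x _ T.hs₃ (by simpa using T.sing₃ x hx.symm.dvd),
    om_dvd {T.θ, T.θ'} _ ?_ x (-T.s) (by have := T.hs; omega) ?_⟩
  · simp [T.natAbs_y, charDegree, T.regθ 1 (by simp)]
  · rw [Finset.sum_pair T.neθ, T.singθ x hx.symm.dvd, Int.cast_neg]

end Tri

end Cfsg.Agent.MX
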