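import Cfsg.Agent.MX.Defs
import Cfsg.Agent.S4441
import Cfsg.Agent.S0907
import Cfsg.Agent.H88.PLocal
import Cfsg.Agent.H31.PPart
import Cfsg.Agent.H34.Basic

set_option autoImplicit false

namespace Cfsg.Agent.MX

open Cfsg Subgroup
open scoped ComplexConjugate

variable {K : Type*} [Group K] [Finite K]

namespace TriEx

theorem syl {p : ℕ} [Fact p.Prime] {x : K} (hx : orderOf x = p) (hsq : ¬ p ^ 2 ∣ Nat.card K) :
    ∃ P : Sylow p K, (P : Subgroup K) = zpowers x := by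
  have h1 : Nat.card (zpowers x) = p := by rw [Nat.card_zpowers, hx]
  have h2 : IsPGroup p (zpowers x) := IsPGroup.of_card (n := 1) (by rw [h1, pow_one])
  refine ⟨h2.toSylow fun h => hsq ?_, rfl⟩
  rw [← (zpowers x).card_mul_index, h1, pow_two]
  exact Nat.mul_dvd_mul_left _ h

omit [Finite K] in
theorem cent_zp (x : K) : centralizer ((zpowers x : Subgroup K) : Set K) = Cg x := by
  rw [zpowers_eq_closure, centralizer_closure]

/-- a `p`-singular element is conjugate to `u v`, `1 ≠ u ∈ P`, `v` a `p`-regular element of `C(P)` -/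
theorem sing {p : ℕ} [hp : Fact p.Prime] (P : Sylow p K) (hP : Nat.card P = p) {g : K} (hg : p ∣ orderOf g) :
    ∃ k u v : K, k * g * k⁻¹ = u * v ∧ u ∈ (P : Subgroup K) ∧ u ≠ 1 ∧
      v ∈ centralizer ((P : Subgroup K) : Set K) ∧ ¬ p ∣ orderOf v := by
  obtain ⟨u, v, rfl, c, -, -, ⟨n, hn⟩, hv⟩ := H31.exists_p_parts hp.out g
  have hv' : ¬ p ∣ orderOf v := (Nat.Prime.coprime_iff_not_dvd hp.out).1 hv.symm
  have u1 : u ≠ 1 := by
    rintro rfl
    exact hv' (by rwa [one_mul] at hg)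
  have h1 : IsPGroup p (zpowers u) := by
    rintro ⟨_, j, rfl⟩
    refine ⟨n, Subtype.ext ?_⟩
    show (u ^ j) ^ p ^ n = 1
    rw [← zpow_natCast, ← zpow_mul, mul_comm, zpow_mul, zpow_natCast, hn, one_zpow]
  obtain ⟨Q, hQ⟩ := h1.exists_le_sylow
  obtain ⟨k, rfl⟩ := MulAction.exists_smul_eq K Q P
  have m : k * u * k⁻¹ ∈ ((k • Q : Sylow p K) : Subgroup K) := by
    rw [Sylow.coe_subgroup_smul]
    exact smul_mem_pointwise_smul u (MulAut.conj k) _ (hQ (mem_zpowers u))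
  have n1 : k * u * k⁻¹ ≠ 1 := by simpa using u1
  refine ⟨k, k * u * k⁻¹, k * v * k⁻¹, by group, m, n1, ?_, ?_⟩
  · have e : zpowers (k * u * k⁻¹) = ((k • Q : Sylow p K) : Subgroup K) := by
      refine eq_of_le_of_card_ge (zpowers_le.2 m) ?_
      have d := orderOf_dvd_natCard (⟨_, m⟩ : ((k • Q : Sylow p K) : Subgroup K))
      rw [orderOf_mk, hP, Nat.dvd_prime hp.out, orderOf_eq_one_iff] at d
      rw [Nat.card_zpowers, d.resolve_left n1]
      exact hP.le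
    rw [← e, cent_zp, mem_centralizer_singleton_iff, conj_mul, conj_mul, c.eq]
  · rwa [show orderOf (k * v * k⁻¹) = orderOf v from (MulAut.conj k).orderOf_eq v]

end TriEx

theorem exists_tri {x : K} (hx : orderOf x = 7) (hsq : ¬ 7 ^ 2 ∣ Nat.card K)
    (he : Nat.card (Ng x) = 3 * Nat.card (Cg x)) : Nonempty (Tri K) := by
  classical
  have := Fintype.ofFinite K
  have : Fact (Nat.Prime 7) := ⟨by norm_num⟩
  obtain ⟨M, hM⟩ := H88.exists_isPModular (p := 7) (by norm_num)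
  have := hM.2.1
  obtain ⟨P, hP⟩ := TriEx.syl hx hsq
  have cP : Nat.card P = 7 := by
    show Nat.card (P : Subgroup K) = 7
    rw [hP, Nat.card_zpowers, hx]
  have hr : (centralizer ((P : Subgroup K) : Set K)).relIndex (normalizer ((P : Subgroup K) : Set K)) = 3 := by
    have le := centralizer_le_normalizer ((P : Subgroup K) : Set K)
    have e := ((centralizer ((P : Subgroup K) : Set K)).subgroupOf
      (normalizer ((P : Subgroup K) : Set K))).card_mul_index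
    rw [Nat.card_congr (subgroupOfEquivOfLe le).toEquiv] at e
    rw [relIndex]
    refine Nat.eq_of_mul_eq_mul_left (Nat.card_pos (α := centralizer ((P : Subgroup K) : Set K))) ?_
    rw [e, hP, TriEx.cent_zp, mul_comm]
    exact he
  obtain ⟨X, Y, hB, hd, cX, cY, ε, s, h1, hs, h2, h3, h4⟩ := S4441.result 7 M hM (by norm_num) P cP 3 hr
  set o : IrrCharacter K := ⟨fun _ => 1, H5.isIrrCharacter_one⟩ with ho
  have oX : o ∈ X := by
    have m : o ∈ X ∪ Y := hB ▸ H32.one_mem_principalBlock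
    refine m.resolve_right fun m => ?_
    have e := h2 o m
    rw [H34.charDegree_eq_of_cast (n := 1) (by simp [ho])] at e
    rcases hs with rfl | rfl <;> revert e <;> decide
  have sg : ∀ χ ∈ X, ∀ g : K, 7 ∣ orderOf g → (χ : K → ℂ) g = ε χ := fun χ hχ g hg => by
    obtain ⟨k, u, v, e, m, u1, c, r⟩ := TriEx.sing P cP hg
    rw [← H34.irr_isClassFunction χ g k, e]
    exact (h1 χ hχ).2.2 u m u1 v c r
  have εo : (ε o : ℂ) = 1 := (sg o oX x hx.symm.dvd).symm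
  obtain ⟨χ₂, χ₃, n2, n3, n23, rfl⟩ : ∃ a b, a ≠ o ∧ b ≠ o ∧ a ≠ b ∧ X = {o, a, b} := by
    obtain ⟨a, b, c, ab, ac, bc, rfl⟩ := Set.ncard_eq_three.1 ((Nat.card_coe_set_eq X).symm.trans cX)
    rcases oX with e | e | e
    · exact ⟨b, c, e ▸ ab.symm, e ▸ ac.symm, bc, by rw [e]⟩
    · exact ⟨a, c, e ▸ ab, e ▸ bc.symm, ac, by rw [e, Set.insert_comm]⟩
    · rw [Set.mem_singleton_iff] at e
      exact ⟨a, b, e ▸ ac, e ▸ bc, ab, by rw [e, Set.pair_comm b c, Set.insert_comm]⟩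
  obtain ⟨θ, θ', nθ, rfl⟩ := Set.ncard_eq_two.1 ((Nat.card_coe_set_eq Y).symm.trans cY)
  have m2 : χ₂ ∈ ({o, χ₂, χ₃} : Set (IrrCharacter K)) := .inr (.inl rfl)
  have m3 : χ₃ ∈ ({o, χ₂, χ₃} : Set (IrrCharacter K)) := .inr (.inr rfl)
  have mθ : θ ∈ ({θ, θ'} : Set (IrrCharacter K)) := .inl rfl
  have mθ' : θ' ∈ ({θ, θ'} : Set (IrrCharacter K)) := .inr rfl
  have sX : ∀ f : IrrCharacter K → ℂ, ∑ᶠ χ ∈ ({o, χ₂, χ₃} : Set (IrrCharacter K)), f χ =
      f o + f χ₂ + f χ₃ := fun f => by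
    rw [finsum_mem_insert f (by simp [n2.symm, n3.symm]) (Set.toFinite _), finsum_mem_pair n23, add_assoc]
  have reg : ∀ g : K, ¬ 7 ∣ orderOf g → (s : ℂ) * (θ : K → ℂ) g =
      1 + ε χ₂ * (χ₂ : K → ℂ) g + ε χ₃ * (χ₃ : K → ℂ) g := fun g hg => by
    rw [h4 θ mθ g hg, sX, εo, one_mul]
  have md : ∀ {a d r : ℤ}, (a = 1 ∨ a = -1) → d ≡ a * r [ZMOD ((7 : ℕ) : ℤ)] → a * d ≡ r [ZMOD 7] :=
    fun {a d r} ha e => by
      have := e.mul_left a
      rwa [← mul_assoc, show a * a = 1 by rcases ha with rfl | rfl <;> rfl, one_mul] at this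
  have r1 : ¬ 7 ∣ orderOf (1 : K) := by rw [orderOf_one]; decide
  refine ⟨⟨χ₂, χ₃, θ, θ', ε χ₂, ε χ₃, s, (h1 _ m2).1, (h1 _ m3).1, hs, fun e => n2 (Subtype.ext e),
    fun e => n3 (Subtype.ext e), n23, nθ, md (h1 _ m2).1 (by rw [mul_one]; exact (h1 _ m2).2.1),
    md (h1 _ m3).1 (by rw [mul_one]; exact (h1 _ m3).2.1), md hs (h2 θ mθ), sg _ m2, sg _ m3,
    fun g hg => ?_, h3 θ' mθ' θ mθ, reg⟩⟩
  have e := S0907.result 7 M hM _ H32.isPBlock_principalBlock 1 g r1 hg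
  rw [hB, finsum_mem_union hd (Set.toFinite _) (Set.toFinite _), sX, finsum_mem_pair nθ, sg _ m2 g hg,
    sg _ m3 g hg, h3 θ' mθ' θ mθ 1 r1] at e
  have e1 := reg 1 r1
  simp only [ho, map_one, map_intCast, mul_one] at e
  have e2 : (θ : K → ℂ) 1 * (conj ((θ : K → ℂ) g + (θ' : K → ℂ) g) + s) = 0 := by
    rw [map_add]; linear_combination e + e1
  have e3 := congrArg conj ((mul_eq_zero.1 e2).resolve_left (H5.degree_ne_zero θ.2))
  rw [map_add, Complex.conj_conj, map_intCast, map_zero] at e3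
  exact eq_neg_of_add_eq_zero_left e3

end Cfsg.Agent.MX
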