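import Cfsg.Agent.MX.Defs
import Cfsg.Agent.MX.Om
import Cfsg.Agent.H7.Galois

set_option autoImplicit false

namespace Cfsg.Agent.MX

open Cfsg Subgroup

variable {K : Type*} [Group K] [Finite K]

theorem TR93.key {θ χ χ' : K → ℂ} (hθ : IsIrrCharacter K θ) (hχ : IsIrrCharacter K χ) (hχ' : IsIrrCharacter K χ')
    {s a b : ℂ} (ha : a ≠ 0) (h1 : χ ≠ fun _ => 1) (d1 : charDegree χ ≠ charDegree θ)
    (d2 : charDegree χ ≠ charDegree χ') (sing : ∀ g : K, 7 ∣ orderOf g → χ g = a)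
    (reg : ∀ g : K, ¬ 7 ∣ orderOf g → s * θ g = 1 + a * χ g + b * χ' g) {k : ℕ} (hk : k.Coprime (Nat.card K))
    (g : K) : χ (g ^ k) = χ g := by
  classical
  have := Fintype.ofFinite K
  have hψ := H7.isIrrCharacter_comp_pow hk hχ
  have co : ∀ x : K, k.Coprime (orderOf x) := fun x => hk.coprime_dvd_right (orderOf_dvd_natCard x)
  set ψ : K → ℂ := fun g => χ (g ^ k) with e
  have dψ : charDegree ψ = charDegree χ := by simp [charDegree, e]
  by_contra hg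
  have n0 : ψ ≠ χ := fun h => hg (congrFun h g)
  have n1 : ψ ≠ fun _ => 1 := fun h => h1 (funext fun x => by
    obtain ⟨m, hm⟩ := exists_pow_eq_self_of_coprime (co x)
    rw [← hm, ← pow_mul, mul_comm, pow_mul]
    exact congrFun h (x ^ m))
  have z : classInner (s • θ - (fun _ => 1) - a • χ - b • χ') (ψ - χ) = 0 := by
    unfold classInner
    rw [Finset.sum_eq_zero, mul_zero]
    intro x _
    by_cases hx : 7 ∣ orderOf x
    · rw [Pi.sub_apply ψ, sing x hx, show ψ x = a from sing _ (by rwa [(co x).symm.orderOf_pow]), sub_self, map_zero,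
        mul_zero]
    · have : (s • θ - (fun _ => 1) - a • χ - b • χ' : K → ℂ) x = 0 := by
        simp only [Pi.sub_apply, Pi.smul_apply, smul_eq_mul, reg x hx]
        ring
      rw [this, zero_mul]
  simp only [H5.classInner_sub_left, H5.classInner_sub_right, H5.classInner_smul_left] at z
  rw [H5.classInner_irr_ne hθ hψ (fun h => d1 (dψ ▸ h ▸ rfl)), H5.classInner_irr_ne hθ hχ (fun h => d1 (h ▸ rfl)),
    H5.classInner_irr_ne H5.isIrrCharacter_one hψ n1.symm, H5.classInner_irr_ne H5.isIrrCharacter_one hχ h1.symm,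
    H5.classInner_irr_ne hχ hψ n0.symm, H5.classInner_irr_self hχ,
    H5.classInner_irr_ne hχ' hψ (fun h => d2 (dψ ▸ h ▸ rfl)), H5.classInner_irr_ne hχ' hχ (fun h => d2 (h ▸ rfl))] at z
  exact ha (by linear_combination z)

theorem Tri.rat (T : Tri K) (hne : T.a.natAbs ≠ T.b.natAbs) {k : ℕ}
    (hk : k.Coprime (Nat.card K)) (g : K) :
    (T.χ₂ : K → ℂ) (g ^ k) = (T.χ₂ : K → ℂ) g ∧ (T.χ₃ : K → ℂ) (g ^ k) = (T.χ₃ : K → ℂ) g := by
  rw [T.natAbs_a, T.natAbs_b] at hne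
  have m2 := T.mod₂
  have m3 := T.mod₃
  have mθ := T.modθ
  unfold Int.ModEq at m2 m3 mθ
  refine ⟨TR93.key T.θ.2 T.χ₂.2 T.χ₃.2 (s := T.s) (b := T.s₃) ?_ T.ne₂ (fun e => ?_) hne T.sing₂ T.reg hk g,
    TR93.key T.θ.2 T.χ₃.2 T.χ₂.2 (s := T.s) (b := T.s₂) ?_ T.ne₃ (fun e => ?_) hne.symm T.sing₃
      (fun x hx => by rw [T.reg x hx]; ring) hk g⟩
  · rcases T.hs₂ with h | h <;> simp [h]
  · rw [e] at m2
    rcases T.hs₂ with h | h <;> rcases T.hs with h' | h' <;> rw [h] at m2 <;> rw [h'] at mθ <;> omega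
  · rcases T.hs₃ with h | h <;> simp [h]
  · rw [e] at m3
    rcases T.hs₃ with h | h <;> rcases T.hs with h' | h' <;> rw [h] at m3 <;> rw [h'] at mθ <;> omega

theorem Tri.rat_prime (T : Tri K) (hne : T.a.natAbs ≠ T.b.natAbs) {q : ℕ} (hq : q.Prime) {g : K}
    (hg : orderOf g = q) {j : ℕ} (hj : ¬ q ∣ j) :
    (T.χ₂ : K → ℂ) (g ^ j) = (T.χ₂ : K → ℂ) g ∧ (T.χ₃ : K → ℂ) (g ^ j) = (T.χ₃ : K → ℂ) g := by
  obtain ⟨r, h1, h2, h3⟩ := Nat.forall_exists_prime_gt_and_modEq (Nat.card K) hq.ne_zero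
    ((Nat.Prime.coprime_iff_not_dvd hq).2 hj).symm
  have e : g ^ j = g ^ r := pow_eq_pow_iff_modEq.2 (hg ▸ h3.symm)
  rw [e]
  exact T.rat hne ((Nat.Prime.coprime_iff_not_dvd h2).2 fun h => (Nat.le_of_dvd Nat.card_pos h).not_gt h1) g

end Cfsg.Agent.MX
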