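import Cfsg.Agent.MX.Defs
import Cfsg.Agent.MX.TriRat
import Cfsg.Agent.S0145
import Cfsg.Agent.H5.Central

set_option autoImplicit false

namespace Cfsg.Agent.MX

open Cfsg Subgroup

variable {K : Type*} [Group K] [Finite K]

theorem rat_val (χ : IrrCharacter K) {q : ℕ} (hq : q.Prime) {g : K} (hg : orderOf g = q)
    (h : ∀ j : ℕ, ¬ q ∣ j → (χ : K → ℂ) (g ^ j) = (χ : K → ℂ) g) :
    ∃ n : ℤ, (χ : K → ℂ) g = n ∧ n ≡ (charDegree (χ : K → ℂ) : ℤ) [ZMOD q] := by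
  classical
  have hc := H5.isCharacter_of_isIrr χ.2
  obtain ⟨d, μ, hd, hμ, hv⟩ := H5.exists_eigenvalues hc g
  rw [hg] at hμ
  have hdeg : charDegree (χ : K → ℂ) = d := by simp [charDegree, hd]
  obtain ⟨r, rfl⟩ : ∃ r, q = r + 1 := ⟨q - 1, by have := hq.pos; omega⟩
  have hr : (r : ℂ) ≠ 0 := by
    have := hq.two_le
    exact_mod_cast (by omega : r ≠ 0)
  set m := (Finset.univ.filter fun i => μ i = 1).card
  have e1 : ∑ j ∈ Finset.range (r + 1), (χ : K → ℂ) (g ^ j) = (r + 1 : ℕ) * m := by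
    have : ∀ j : ℕ, (χ : K → ℂ) (g ^ j) = ∑ i, μ i ^ j := fun j => by simpa using hv j
    simp only [this]
    rw [Finset.sum_comm]
    have : ∀ i, ∑ j ∈ Finset.range (r + 1), μ i ^ j = if μ i = 1 then ((r + 1 : ℕ) : ℂ) else 0 := fun i => by
      split_ifs with e
      · simp [e]
      · rw [geom_sum_eq e, hμ, sub_self, zero_div]
    simp only [this]
    rw [← Finset.sum_filter, Finset.sum_const, nsmul_eq_mul, mul_comm]
  have e2 : ∑ j ∈ Finset.range (r + 1), (χ : K → ℂ) (g ^ j) = r * (χ : K → ℂ) g + d := by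
    rw [Finset.sum_range_succ', pow_zero, hd, Finset.sum_congr rfl fun j hj => h (j + 1) fun hd' => by
      have := Nat.le_of_dvd (Nat.succ_pos j) hd'
      have := Finset.mem_range.1 hj
      omega]
    simp
  have e3 : (χ : K → ℂ) g = (((((r + 1 : ℕ) * m - d : ℤ) : ℚ) / r : ℚ) : ℂ) := by
    push_cast at e1 ⊢
    rw [eq_div_iff hr]
    linear_combination e1 - e2
  obtain ⟨n, hn⟩ := H5.exists_int_of_isIntegral_rat (e3 ▸ H5.isIntegral_apply hc g)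
  have e4 : (χ : K → ℂ) g = n := by rw [e3, hn]; simp
  refine ⟨n, e4, ?_⟩
  have e5 : (r : ℤ) * n + d = (r + 1 : ℕ) * m := by
    rw [e2, e4] at e1
    exact_mod_cast e1
  rw [hdeg, Int.modEq_iff_dvd]
  refine ⟨m - n, ?_⟩
  push_cast at e5 ⊢
  linear_combination e5

namespace TriQ

theorem five (g : K) {c : Fin 5 → IrrCharacter K} (hc : Function.Injective c) {v : Fin 5 → ℤ}
    (hv : ∀ i, (c i : K → ℂ) g = v i) : ∑ i, v i ^ 2 ≤ (Nat.card (Cg g) : ℤ) := by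
  classical
  have e := (S0145.result g g).1 (IsConj.refl g)
  rw [finsum_eq_sum_of_fintype] at e
  simp only [Complex.mul_conj] at e
  have e' : ∑ χ : IrrCharacter K, Complex.normSq ((χ : K → ℂ) g) = (Nat.card (Cg g) : ℝ) := by
    exact_mod_cast e
  have h1 : ∑ χ ∈ Finset.univ.image c, Complex.normSq ((χ : K → ℂ) g) ≤ (Nat.card (Cg g) : ℝ) :=
    e' ▸ Finset.sum_le_sum_of_subset_of_nonneg (Finset.subset_univ _) fun _ _ _ => Complex.normSq_nonneg _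
  rw [Finset.sum_image fun _ _ _ _ h => hc h] at h1
  simp only [hv, Complex.normSq_intCast, ← sq] at h1
  exact_mod_cast h1

theorem ne_deg {s t d e : ℤ} (hs : s = 1 ∨ s = -1) (ht : t = 1 ∨ t = -1) (h1 : s * d ≡ 1 [ZMOD 7])
    (h3 : t * e ≡ 3 [ZMOD 7]) : d ≠ e := by
  rintro rfl
  unfold Int.ModEq at h1 h3
  rcases hs with rfl | rfl <;> rcases ht with rfl | rfl <;> omega

theorem inj5 {α : Type*} {a b c d e : α} (h1 : a ≠ b) (h2 : a ≠ c) (h3 : a ≠ d) (h4 : a ≠ e) (h5 : b ≠ c)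
    (h6 : b ≠ d) (h7 : b ≠ e) (h8 : c ≠ d) (h9 : c ≠ e) (h10 : d ≠ e) : Function.Injective ![a, b, c, d, e] := by
  intro i j hij
  fin_cases i <;> fin_cases j <;> first | rfl | exact absurd hij ‹_› | exact absurd hij.symm ‹_›

end TriQ

theorem Tri.ratq (T : Tri K) (hne : T.a.natAbs ≠ T.b.natAbs) {q : ℕ} (hq : q.Prime) (h7 : q ≠ 7)
    {g : K} (hg : orderOf g = q) : ∃ α β : ℤ, α ≡ T.a [ZMOD q] ∧ β ≡ T.b [ZMOD q] ∧
      1 + α ^ 2 + β ^ 2 + 2 * (1 + α + β) ^ 2 ≤ (Nat.card (Cg g) : ℤ) := by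
  obtain ⟨n₂, e₂, m₂⟩ := rat_val T.χ₂ hq hg fun j hj => (T.rat_prime hne hq hg hj).1
  obtain ⟨n₃, e₃, m₃⟩ := rat_val T.χ₃ hq hg fun j hj => (T.rat_prime hne hq hg hj).2
  refine ⟨T.s₂ * n₂, T.s₃ * n₃, m₂.mul_left _, m₃.mul_left _, ?_⟩
  have hr : ¬ 7 ∣ orderOf g := fun h =>
    h7 ((Nat.prime_dvd_prime_iff_eq (by norm_num) hq).1 (hg ▸ h)).symm
  have hs : (T.s : ℂ) * T.s = 1 := by rcases T.hs with h | h <;> simp [h]
  have eθ : (T.θ : K → ℂ) g = (T.s * (1 + T.s₂ * n₂ + T.s₃ * n₃) : ℤ) := by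
    have := T.reg g hr
    rw [e₂, e₃] at this
    push_cast
    linear_combination (T.s : ℂ) * this - (T.θ : K → ℂ) g * hs
  have eθ' := (T.regθ g hr).trans eθ
  have hd : charDegree (T.θ' : K → ℂ) = charDegree (T.θ : K → ℂ) := by
    rw [charDegree, T.regθ 1 (by simp), charDegree]
  let o : IrrCharacter K := ⟨_, H5.isIrrCharacter_one⟩
  have ho : (1 : ℤ) * (charDegree (o : K → ℂ) : ℤ) ≡ 1 [ZMOD 7] := by simp [o, charDegree]
  have key : ∀ {s : ℤ} {χ : IrrCharacter K}, s = 1 ∨ s = -1 → s * (charDegree (χ : K → ℂ) : ℤ) ≡ 1 [ZMOD 7] →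
      χ ≠ T.θ ∧ χ ≠ T.θ' := fun hs' h1 =>
    ⟨fun e => TriQ.ne_deg hs' T.hs h1 T.modθ (by rw [e]),
      fun e => TriQ.ne_deg hs' T.hs h1 T.modθ (by rw [e, hd])⟩
  have k1 := key (.inl rfl) ho
  have k2 := key T.hs₂ T.mod₂
  have k3 := key T.hs₃ T.mod₃
  have k4 : o ≠ T.χ₂ := fun e => T.ne₂ (by rw [← e])
  have k5 : o ≠ T.χ₃ := fun e => T.ne₃ (by rw [← e])
  have hinj : Function.Injective ![o, T.χ₂, T.χ₃, T.θ, T.θ'] := by
    exact TriQ.inj5 k4 k5 k1.1 k1.2 T.ne₂₃ k2.1 k2.2 k3.1 k3.2 T.neθ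
  have := TriQ.five g hinj (v := ![1, n₂, n₃, T.s * (1 + T.s₂ * n₂ + T.s₃ * n₃), T.s * (1 + T.s₂ * n₂ + T.s₃ * n₃)])
    (fun i => by
      fin_cases i
      · simp [o]
      · exact e₂
      · exact e₃
      · exact eθ
      · exact eθ')
  simp only [Fin.sum_univ_five, Matrix.cons_val] at this
  have a1 : T.s ^ 2 = 1 := by rcases T.hs with h | h <;> simp [h]
  have a2 : T.s₂ ^ 2 = 1 := by rcases T.hs₂ with h | h <;> simp [h]
  have a3 : T.s₃ ^ 2 = 1 := by rcases T.hs₃ with h | h <;> simp [h]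
  rw [mul_pow, a1] at this
  rw [mul_pow, mul_pow, a2, a3]
  linarith

end Cfsg.Agent.MX
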