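import Cfsg.Agent.MX.Defs
import Cfsg.Agent.MX.Num

set_option autoImplicit false

namespace Cfsg.Agent.MX

open Cfsg Subgroup

namespace U7

/-- the signed candidates -/
def cand : List ℤ :=
  [-6, 8, 15, -20, 22, 36, -48, -55, 64, -90, 99, 120, -132, -160, 176, 288, 330, -363, -384,
   -440, 484, 512, -720, 792, 960, -1056, -1210, -1280, 1331, 1408, -1980, 2178, 2304, 2640,
   -2904, -3072, -3520, 3872, 4096, -5445, -5760, 6336, 7260, 7680, -7986, -8448, -9680, -10240,
   10648, 11264, -15840, 17424, 18432, 19965, 21120, -23232, -24576, -26620, -28160, 30976,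
   32768, -43560, -46080, 47916, 50688, 58080, 61440, -63888, -67584, -77440, -81920, 85184,
   90112, -119790, -126720, 139392, 147456, 159720, 168960, -185856, -196608, -212960, -225280,
   247808, 262144, -348480, -368640, 383328, 405504, 464640]

theorem chk1 : ∀ d ∈ dv [(2, 19), (3, 2), (5, 1), (11, 3)], d * d < 219815608320 → 2 ≤ d →
    (d % 7 = 1 → (d : ℤ) ∈ cand) ∧ (d % 7 = 6 → -(d : ℤ) ∈ cand) := by
  decide +kernel

theorem chk2 : ∀ a ∈ cand, ∀ b ∈ cand, (1 + a + b).natAbs ∣ 31402229760 →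
    (a.natAbs ≠ b.natAbs → 110 ≤ a.natAbs ∧ 110 ≤ b.natAbs) →
    -(a * b * (1 + a + b)) < 0 ∨ -(a * b * (1 + a + b)) = 396 ∨ -(a * b * (1 + a + b)) = 1045440 ∨
      -(a * b * (1 + a + b)) = 9583200 := by
  decide +kernel

theorem mem_cand {a : ℤ} (ha : a ≡ 1 [ZMOD 7]) (da : a.natAbs ∣ 31402229760)
    (la : a.natAbs * a.natAbs < 219815608320) (ga : 2 ≤ a.natAbs) : a ∈ cand := by
  have h := chk1 _ (mem_dv (l := [(2, 19), (3, 2), (5, 1), (11, 3)]) (by decide +kernel) da) la ga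
  unfold Int.ModEq at ha
  rcases Int.natAbs_eq a with e | e
  · rw [e]; exact h.1 (by omega)
  · rw [e]; exact h.2 (by omega)

theorem nsq {n k r : ℤ} (h0 : 0 ≤ k) (h1 : k * k < n) (h2 : n < (k + 1) * (k + 1)) (h : n = r * r) :
    False := by
  have h3 : |r| * |r| = r * r := abs_mul_abs_self r
  have h4 := abs_nonneg r
  rcases le_or_gt |r| k with e | e
  · nlinarith
  · have : k + 1 ≤ |r| := e
    nlinarith

end U7

/-- no square triple among the divisors of 2^19 3^2 5 11^3 -/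
theorem no_tri_U {a b y : ℤ} (h : 1 + a + b = y) (ha : a ≡ 1 [ZMOD 7]) (hb : b ≡ 1 [ZMOD 7])
    (da : a.natAbs ∣ 31402229760) (db : b.natAbs ∣ 31402229760) (dy : y.natAbs ∣ 31402229760)
    (la : a.natAbs * a.natAbs < 219815608320) (lb : b.natAbs * b.natAbs < 219815608320)
    (ga : 2 ≤ a.natAbs) (gb : 2 ≤ b.natAbs)
    (h110 : a.natAbs ≠ b.natAbs → 110 ≤ a.natAbs ∧ 110 ≤ b.natAbs)
    (hsq : IsSquare (-(a * b * y))) : False := by
  subst h
  obtain ⟨r, hr⟩ := hsq
  rcases U7.chk2 a (U7.mem_cand ha da la ga) b (U7.mem_cand hb db lb gb) dy h110 with e | e | e | e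
  · rw [hr] at e
    exact absurd (mul_self_nonneg r) (not_le.2 e)
  · exact U7.nsq (k := 19) (by norm_num) (by norm_num) (by norm_num) (e.symm.trans hr)
  · exact U7.nsq (k := 1022) (by norm_num) (by norm_num) (by norm_num) (e.symm.trans hr)
  · exact U7.nsq (k := 3095) (by norm_num) (by norm_num) (by norm_num) (e.symm.trans hr)

end Cfsg.Agent.MX
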